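import Mathlib
import Cfsg.Agent.Helper1.NormRank2
import Cfsg.Agent.Helper10.AxB

set_option autoImplicit false
open Cfsg

namespace Cfsg.Agent.Helper10

/-- Non-abelian `p`-groups (`p` odd) with a cyclic subgroup of index `p`: the modular
presentation. -/
theorem modular_presentation {G : Type*} [Group G] [Finite G] {p : ℕ} [hpf : Fact p.Prime]
    (hp : p ≠ 2) (n : ℕ) (hn : 3 ≤ n) (hG : Nat.card G = p ^ n) (C : Subgroup G)
    (hC : IsCyclic C) (hCi : C.index = p) (hna : ∃ x y : G, x * y ≠ y * x) :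
    ∃ a b : G, orderOf a = p ^ (n - 1) ∧ orderOf b = p ∧ b ∉ Subgroup.zpowers a ∧
      b * a * b⁻¹ = a ^ (1 + p ^ (n - 2)) := by
  have hpp := hpf.out
  have hR : IsPGroup p G := IsPGroup.of_card hG
  have hnc : ¬ IsCyclic G := by
    intro hcyc
    obtain ⟨x, y, hxy⟩ := hna
    obtain ⟨g, hg⟩ := hcyc.exists_generator
    obtain ⟨i, hi⟩ := hg x
    obtain ⟨j, hj⟩ := hg y
    apply hxy
    simp only at hi hj
    rw [← hi, ← hj, ← zpow_add, ← zpow_add, add_comm]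
  have hCn : C.Normal := by
    apply Subgroup.normal_of_index_eq_minFac_card
    rw [hG, Nat.pow_minFac (by omega), Nat.Prime.minFac_eq hpp]
    exact hCi
  have hCcard : Nat.card C = p ^ (n - 1) := by
    have h1 := Subgroup.card_mul_index C
    rw [hCi, hG] at h1
    have h2 : p ^ n = p ^ (n - 1) * p := by
      rw [← pow_succ]; congr 1; omega
    rw [h2] at h1
    exact Nat.eq_of_mul_eq_mul_right hpp.pos h1
  obtain ⟨g, hg⟩ := hC.exists_generator
  obtain ⟨a, ha⟩ : ∃ a : G, a = (g : G) := ⟨_, rfl⟩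
  have haC : a ∈ C := by rw [ha]; exact g.2
  have hgen : ∀ c ∈ C, ∃ i : ℤ, a ^ i = c := by
    intro c hc
    obtain ⟨i, hi⟩ := hg ⟨c, hc⟩
    exact ⟨i, by have := congrArg Subtype.val hi; rw [ha]; simpa using this⟩
  have hord : orderOf a = p ^ (n - 1) := by
    rw [ha, Subgroup.orderOf_coe, orderOf_eq_card_of_forall_mem_zpowers hg, hCcard]
  obtain ⟨h1, h2, h3⟩ := Cfsg.Agent.Helper1.omega_cyclic_index hp hR hnc C hC hCi
  obtain ⟨Ω, hΩ⟩ : ∃ Ω : Subgroup G, Ω = Subgroup.closure {x : G | x ^ p = 1} := ⟨_, rfl⟩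
  rw [← hΩ] at h1 h2 h3
  have hΩmem : ∀ x : G, x ^ p = 1 → x ∈ Ω := fun x hx => by
    rw [hΩ]; exact Subgroup.subset_closure hx
  -- the element `z`
  obtain ⟨z, hz⟩ : ∃ z : G, z = a ^ (p ^ (n - 2)) := ⟨_, rfl⟩
  have hzC : z ∈ C := by rw [hz]; exact C.pow_mem haC _
  have hzp : z ^ p = 1 := by
    rw [hz, ← pow_mul, ← pow_succ, show n - 2 + 1 = n - 1 by omega, ← hord, pow_orderOf_eq_one]
  have hz1 : z ≠ 1 := by
    intro h
    rw [hz] at h
    have h4 := orderOf_dvd_of_pow_eq_one h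
    rw [hord] at h4
    have h5 := Nat.le_of_dvd (pow_pos hpp.pos _) h4
    have h6 : p ^ (n - 2) < p ^ (n - 1) := Nat.pow_lt_pow_right hpp.one_lt (by omega)
    omega
  have hzord : orderOf z = p := orderOf_eq_prime hzp hz1
  have hza : z * a = a * z := by
    rw [hz]; exact ((Commute.refl a).pow_left _).eq
  -- elements of `C` of order dividing `p` are powers of `z`
  have hCp : ∀ c ∈ C, c ^ p = 1 → c ∈ Subgroup.zpowers z := by
    intro c hc hcp
    obtain ⟨i, hi⟩ := hgen c hc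
    rw [← hi, ← zpow_natCast, ← zpow_mul] at hcp
    have h4 : (orderOf a : ℤ) ∣ i * p := orderOf_dvd_iff_zpow_eq_one.mpr hcp
    rw [hord] at h4
    have h5 : ((p ^ (n - 1) : ℕ) : ℤ) = (p ^ (n - 2) : ℕ) * (p : ℤ) := by
      rw [← Nat.cast_mul, ← pow_succ, show n - 2 + 1 = n - 1 by omega]
    rw [h5] at h4
    have hp0 : (p : ℤ) ≠ 0 := by exact_mod_cast hpp.ne_zero
    obtain ⟨t, ht⟩ := (mul_dvd_mul_iff_right hp0).mp h4
    rw [Subgroup.mem_zpowers_iff]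
    refine ⟨t, ?_⟩
    rw [← hi, ht, hz, zpow_mul, zpow_natCast]
  -- an element `b₁ ∈ Ω` outside `C`
  obtain ⟨b₁, hb₁Ω, hb₁C⟩ : ∃ b₁ ∈ Ω, b₁ ∉ C := by
    by_contra hcon
    push Not at hcon
    have hle : Ω ≤ Subgroup.zpowers z := fun x hx => hCp x (hcon x hx) (h2 x hx)
    have := Subgroup.card_le_of_le hle
    rw [h3, Nat.card_zpowers, hzord] at this
    have : p < p ^ 2 := by
      have := hpp.one_lt
      nlinarith
    omega
  have hb₁p : b₁ ^ p = 1 := h2 b₁ hb₁Ω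
  have hb₁z : b₁ * z = z * b₁ := h1 b₁ hb₁Ω z (hΩmem z hzp)
  -- `b₁ a b₁⁻¹ = a z^i`
  obtain ⟨i, hi⟩ : ∃ i : ℕ, b₁ * a * b₁⁻¹ = a * z ^ i := by
    have hmem : a⁻¹ * (b₁ * a * b₁⁻¹) ∈ Subgroup.zpowers z := by
      apply hCp
      · exact C.mul_mem (C.inv_mem haC) (hCn.conj_mem a haC b₁)
      · have e : a⁻¹ * (b₁ * a * b₁⁻¹) = (a⁻¹ * b₁ * a) * b₁⁻¹ := by group
        rw [e]
        have hm1 : a⁻¹ * b₁ * a ∈ Ω := by
          apply hΩmem
          have : a⁻¹ * b₁ * a = a⁻¹ * b₁ * a⁻¹⁻¹ := by rw [inv_inv]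
          rw [this, conj_pow, hb₁p, mul_one, inv_inv, inv_mul_cancel]
        exact h2 _ (Ω.mul_mem hm1 (Ω.inv_mem hb₁Ω))
    obtain ⟨t, ht⟩ := Subgroup.mem_zpowers_iff.mp hmem
    have h4 := zpow_mod_orderOf z t
    rw [hzord] at h4
    have h5 : 0 ≤ t % (p : ℤ) := Int.emod_nonneg t (by exact_mod_cast hpp.ne_zero)
    refine ⟨(t % (p : ℤ)).toNat, ?_⟩
    have h6 : z ^ (t % (p : ℤ)).toNat = z ^ (t % (p : ℤ)) := by
      rw [← zpow_natCast, Int.toNat_of_nonneg h5]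
    rw [h6, h4, ht]; group
  -- `p ∤ i`
  have hcard : Nat.card (G ⧸ C) = p := by
    rw [← Subgroup.index_eq_card]; exact hCi
  have hb₁1 : (b₁ : G ⧸ C) ≠ 1 := by
    rw [Ne, QuotientGroup.eq_one_iff]; exact hb₁C
  have htop := zpowers_eq_top_of_prime_card hcard hb₁1
  have hdecomp : ∀ y : G, ∃ c ∈ C, ∃ j : ℤ, y = c * b₁ ^ j := by
    intro y
    have hy' : (y : G ⧸ C) ∈ Subgroup.zpowers (b₁ : G ⧸ C) := by rw [htop]; trivial
    obtain ⟨j, hj⟩ := hy'
    have hcC : y * (b₁ ^ j)⁻¹ ∈ C := by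
      rw [← QuotientGroup.eq_one_iff, QuotientGroup.mk_mul, QuotientGroup.mk_inv,
        QuotientGroup.mk_zpow, ← hj]
      simp
    exact ⟨_, hcC, j, by group⟩
  have hCcomm : ∀ c ∈ C, ∀ d ∈ C, c * d = d * c := by
    intro c hc d hd
    obtain ⟨s, hs⟩ := hgen c hc
    obtain ⟨t, ht⟩ := hgen d hd
    rw [← hs, ← ht, ← zpow_add, ← zpow_add, add_comm]
  have hpi : ¬ p ∣ i := by
    intro hdvd
    have hzi : z ^ i = 1 := by
      rw [← hzord] at hdvd
      exact orderOf_dvd_iff_pow_eq_one.mp hdvd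
    rw [hzi, mul_one] at hi
    have hba : b₁ * a = a * b₁ := by
      calc b₁ * a = (b₁ * a * b₁⁻¹) * b₁ := by group
        _ = a * b₁ := by rw [hi]
    have hbC : ∀ c ∈ C, Commute b₁ c := by
      intro c hc
      obtain ⟨s, hs⟩ := hgen c hc
      rw [← hs]
      exact (show Commute b₁ a from hba).zpow_right s
    obtain ⟨x, y, hxy⟩ := hna
    apply hxy
    obtain ⟨c, hc, s, rfl⟩ := hdecomp x
    obtain ⟨d, hd, t, rfl⟩ := hdecomp y
    have e1 : Commute (b₁ ^ s) d := (hbC d hd).zpow_left s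
    have e2 : Commute (b₁ ^ t) c := (hbC c hc).zpow_left t
    have e3 : Commute (b₁ ^ s) (b₁ ^ t) := ((Commute.refl b₁).zpow_right t).zpow_left s
    have e4 : Commute c d := hCcomm c hc d hd
    calc c * b₁ ^ s * (d * b₁ ^ t) = c * (b₁ ^ s * d) * b₁ ^ t := by group
      _ = c * (d * b₁ ^ s) * b₁ ^ t := by rw [e1.eq]
      _ = (c * d) * (b₁ ^ s * b₁ ^ t) := by group
      _ = (d * c) * (b₁ ^ t * b₁ ^ s) := by rw [e4.eq, e3.eq]
      _ = d * (c * b₁ ^ t) * b₁ ^ s := by group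
      _ = d * (b₁ ^ t * c) * b₁ ^ s := by rw [e2.eq]
      _ = d * b₁ ^ t * (c * b₁ ^ s) := by group
  -- conjugation by powers of `b₁`
  have hpow : ∀ j : ℕ, b₁ ^ j * a * (b₁ ^ j)⁻¹ = a * z ^ (i * j) := by
    intro j
    induction j with
    | zero => simp
    | succ j ih =>
      have hbz : ∀ m : ℕ, b₁ * z ^ m * b₁⁻¹ = z ^ m := by
        intro m
        have : Commute b₁ (z ^ m) := (show Commute b₁ z from hb₁z).pow_right m
        rw [this.eq]; group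
      calc b₁ ^ (j + 1) * a * (b₁ ^ (j + 1))⁻¹ = b₁ * (b₁ ^ j * a * (b₁ ^ j)⁻¹) * b₁⁻¹ := by
            rw [pow_succ']; group
        _ = b₁ * (a * z ^ (i * j)) * b₁⁻¹ := by rw [ih]
        _ = (b₁ * a * b₁⁻¹) * (b₁ * z ^ (i * j) * b₁⁻¹) := by group
        _ = a * z ^ i * z ^ (i * j) := by rw [hi, hbz]
        _ = a * z ^ (i * (j + 1)) := by rw [mul_assoc, ← pow_add]; congr 2; ring
  have hcop : Nat.Coprime i p := (Nat.Coprime.symm ((Nat.Prime.coprime_iff_not_dvd hpp).mpr hpi))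
  obtain ⟨j, -, hj⟩ := Nat.exists_mul_mod_eq_one_of_coprime hcop hpp.one_lt
  have hzij : z ^ (i * j) = z := by
    rw [pow_eq_pow_mod (i * j) hzp, hj, pow_one]
  have hbab : b₁ ^ j * a * (b₁ ^ j)⁻¹ = a ^ (1 + p ^ (n - 2)) := by
    rw [hpow j, hzij, pow_add, pow_one, hz]
  have hbne : b₁ ^ j * a * (b₁ ^ j)⁻¹ ≠ a := by
    rw [hpow j, hzij]
    intro h
    exact hz1 (mul_eq_left.mp h)
  refine ⟨a, b₁ ^ j, hord, ?_, ?_, hbab⟩
  · apply orderOf_eq_prime
    · rw [← pow_mul, mul_comm, pow_mul, hb₁p, one_pow]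
    · intro h
      apply hbne
      rw [h]; group
  · intro hmem
    apply hbne
    obtain ⟨t, ht⟩ := Subgroup.mem_zpowers_iff.mp hmem
    rw [← ht]
    have : Commute (a ^ t) a := (Commute.refl a).zpow_left t
    rw [this.eq]; group

end Cfsg.Agent.Helper10
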