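import Mathlib
import Cfsg.Prelude.Def_Balance

set_option autoImplicit false
open Cfsg

namespace Cfsg.Agent.Helper10.KConn

variable {G : Type*} [Group G]

/-- the commuting relation of the `1`-connectivity graph. -/
def rel (p : ℕ) (A B : Subgroup G) : Prop :=
  IsElementaryAbelian p A ∧ p ^ 1 ≤ Nat.card ↥A ∧ IsElementaryAbelian p B ∧
        p ^ 1 ≤ Nat.card ↥B ∧ ∀ a ∈ A, ∀ b ∈ B, a * b = b * a

theorem rel_symm {p : ℕ} {A B : Subgroup G} (h : rel p A B) : rel p B A :=
  ⟨h.2.2.1, h.2.2.2.1, h.1, h.2.1, fun a ha b hb => (h.2.2.2.2 b hb a ha).symm⟩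

theorem ea_map {p : ℕ} {A : Subgroup G} (h : IsElementaryAbelian p A) (g : G) :
    IsElementaryAbelian p (A.map (MulAut.conj g).toMonoidHom) := by
  refine ⟨⟨⟨?_⟩⟩, ?_⟩
  · rintro ⟨x, hx⟩ ⟨y, hy⟩
    obtain ⟨a, ha, rfl⟩ := hx
    obtain ⟨b, hb, rfl⟩ := hy
    apply Subtype.ext
    have := congrArg Subtype.val (h.1.is_comm.comm ⟨a, ha⟩ ⟨b, hb⟩)
    change a * b = b * a at this
    change (MulAut.conj g) a * (MulAut.conj g) b = (MulAut.conj g) b * (MulAut.conj g) a
    rw [← map_mul, ← map_mul, this]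
  · rintro x ⟨a, ha, rfl⟩
    change (MulAut.conj g) a ^ p = 1
    rw [← map_pow, h.2 a ha, map_one]

theorem rel_map {p : ℕ} {A B : Subgroup G} (h : rel p A B) (g : G) :
    rel p (A.map (MulAut.conj g).toMonoidHom) (B.map (MulAut.conj g).toMonoidHom) := by
  refine ⟨ea_map h.1 g, ?_, ea_map h.2.2.1 g, ?_, ?_⟩
  · rw [Subgroup.card_map_of_injective (MulAut.conj g).injective]; exact h.2.1
  · rw [Subgroup.card_map_of_injective (MulAut.conj g).injective]; exact h.2.2.2.1
  · rintro x ⟨a, ha, rfl⟩ y ⟨b, hb, rfl⟩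
    change (MulAut.conj g) a * (MulAut.conj g) b = (MulAut.conj g) b * (MulAut.conj g) a
    rw [← map_mul, ← map_mul, h.2.2.2.2 a ha b hb]

theorem rtg_symm {p : ℕ} {A B : Subgroup G} (h : Relation.ReflTransGen (rel p) A B) :
    Relation.ReflTransGen (rel p) B A := by
  induction h with
  | refl => exact Relation.ReflTransGen.refl
  | tail _ hbc ih => exact Relation.ReflTransGen.head (rel_symm hbc) ih

theorem rtg_map {p : ℕ} {A B : Subgroup G} (h : Relation.ReflTransGen (rel p) A B) (g : G) :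
    Relation.ReflTransGen (rel p) (A.map (MulAut.conj g).toMonoidHom)
      (B.map (MulAut.conj g).toMonoidHom) := by
  induction h with
  | refl => exact Relation.ReflTransGen.refl
  | tail _ hbc ih => exact Relation.ReflTransGen.tail ih (rel_map hbc g)

theorem map_conj_mul_kc (A : Subgroup G) (g h : G) :
    (A.map (MulAut.conj h).toMonoidHom).map (MulAut.conj g).toMonoidHom =
      A.map (MulAut.conj (g * h)).toMonoidHom := by
  rw [Subgroup.map_map]
  congr 1
  ext x
  simp [MulAut.conj_apply, mul_assoc]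

theorem map_conj_one_kc (A : Subgroup G) : A.map (MulAut.conj (1:G)).toMonoidHom = A := by
  ext x; simp [Subgroup.mem_map]

theorem ea_isPGroup {p : ℕ} {A : Subgroup G} (h : IsElementaryAbelian p A) : IsPGroup p A := by
  intro a
  refine ⟨1, ?_⟩
  apply Subtype.ext
  rw [pow_one, Subgroup.coe_pow, h.2 a a.2]; rfl

theorem zpowers_vertex {p : ℕ} {x : G} (hx : orderOf x = p) :
    IsElementaryAbelian p (Subgroup.zpowers x) ∧ p ^ 1 ≤ Nat.card (Subgroup.zpowers x) := by
  refine ⟨⟨inferInstance, ?_⟩, ?_⟩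
  · intro a ha
    obtain ⟨k, rfl⟩ := Subgroup.mem_zpowers_iff.mp ha
    rw [← zpow_natCast, ← zpow_mul, mul_comm, zpow_mul, zpow_natCast, ← hx, pow_orderOf_eq_one,
      one_zpow]
  · rw [Nat.card_zpowers, hx, pow_one]

theorem rtg_of_le_pGroup {p : ℕ} [Fact p.Prime] [Finite G] {A B Q : Subgroup G}
    (hA : IsElementaryAbelian p A) (hAc : p ^ 1 ≤ Nat.card A)
    (hB : IsElementaryAbelian p B) (hBc : p ^ 1 ≤ Nat.card B)
    (hQ : IsPGroup p Q) (hAQ : A ≤ Q) (hBQ : B ≤ Q) : Relation.ReflTransGen (rel p) A B := by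
  have hp := (Fact.out : p.Prime)
  have hQnt : Nontrivial Q := by
    have h1 : 1 < Nat.card A := lt_of_lt_of_le hp.one_lt (by simpa using hAc)
    have h2 : Nat.card A ≤ Nat.card Q :=
      Nat.card_le_card_of_injective (Subgroup.inclusion hAQ) (Subgroup.inclusion_injective hAQ)
    exact (Finite.one_lt_card_iff_nontrivial).mp (lt_of_lt_of_le h1 h2)
  haveI := hQnt
  have hZnt : Nontrivial (Subgroup.center Q) := hQ.center_nontrivial
  have hZp : IsPGroup p (Subgroup.center Q) := hQ.to_subgroup _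
  have hdvd : p ∣ Nat.card (Subgroup.center Q) := by
    rcases hZp.card_eq_or_dvd with h | h
    · exact absurd h (ne_of_gt Finite.one_lt_card)
    · exact h
  obtain ⟨z', hz'⟩ := exists_prime_orderOf_dvd_card' p hdvd
  have hzo : orderOf ((z' : Q) : G) = p := by
    rw [Subgroup.orderOf_coe, Subgroup.orderOf_coe, hz']
  have hzc : ∀ q ∈ Q, q * ((z' : Q) : G) = ((z' : Q) : G) * q := by
    intro q hq
    have := Subgroup.mem_center_iff.mp z'.2 ⟨q, hq⟩
    exact congrArg Subtype.val this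
  obtain ⟨hZ1, hZ2⟩ := zpowers_vertex (G := G) hzo
  have hcomm : ∀ (C : Subgroup G), C ≤ Q → ∀ a ∈ C, ∀ b ∈ Subgroup.zpowers ((z' : Q) : G),
      a * b = b * a := by
    intro C hCQ a ha b hb
    obtain ⟨k, rfl⟩ := Subgroup.mem_zpowers_iff.mp hb
    exact Commute.zpow_right (hzc a (hCQ ha)) k
  have h1 : rel p A (Subgroup.zpowers ((z' : Q) : G)) := ⟨hA, hAc, hZ1, hZ2, hcomm A hAQ⟩
  have h2 : rel p B (Subgroup.zpowers ((z' : Q) : G)) := ⟨hB, hBc, hZ1, hZ2, hcomm B hBQ⟩
  exact Relation.ReflTransGen.tail (Relation.ReflTransGen.single h1) (rel_symm h2)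

theorem forward {p : ℕ} [Fact p.Prime] [Finite G] (H : Subgroup G) (hH : H ≠ ⊤)
    (hp : p ∣ Nat.card H)
    (hg : ∀ g : G, g ∉ H → ¬ p ∣ Nat.card ↥(H ⊓ H.map (MulAut.conj g).toMonoidHom)) :
    ¬ Cfsg.IsKConnected p 1 G := by
  intro hcon
  have hpp := (Fact.out : p.Prime)
  have hstep : ∀ A B : Subgroup G, rel p A B → A ≤ H → B ≤ H := by
    intro A B hr hAH b hb
    by_contra hbH
    apply hg b hbH
    have hAle : A ≤ H ⊓ H.map (MulAut.conj b).toMonoidHom := by
      intro a ha
      refine ⟨hAH ha, a, hAH ha, ?_⟩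
      change b * a * b⁻¹ = a
      rw [← hr.2.2.2.2 a ha b hb, mul_inv_cancel_right]
    have hpA : p ∣ Nat.card A := by
      rcases (ea_isPGroup hr.1).card_eq_or_dvd with h | h
      · have := hr.2.1; rw [h, pow_one] at this; exact absurd this (not_le.mpr hpp.one_lt)
      · exact h
    exact hpA.trans (Subgroup.card_dvd_of_le hAle)
  have hrtg : ∀ A B : Subgroup G, Relation.ReflTransGen (rel p) A B → A ≤ H → B ≤ H := by
    intro A B h hA
    induction h with
    | refl => exact hA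
    | tail _ hbc ih => exact hstep _ _ hbc ih
  obtain ⟨x, hx⟩ := exists_prime_orderOf_dvd_card' p hp
  have hxo : orderOf (x : G) = p := by rw [Subgroup.orderOf_coe, hx]
  obtain ⟨hE1, hE2⟩ := zpowers_vertex (G := G) hxo
  have hEH : Subgroup.zpowers (x : G) ≤ H := by
    rw [Subgroup.zpowers_le]; exact x.2
  apply hH
  rw [eq_top_iff]
  intro g _
  by_contra hgH
  apply hg g hgH
  have hE1' := ea_map hE1 g
  have hE2' : p ^ 1 ≤ Nat.card ((Subgroup.zpowers (x : G)).map (MulAut.conj g).toMonoidHom) := by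
    rw [Subgroup.card_map_of_injective (MulAut.conj g).injective]; exact hE2
  have h1 : Relation.ReflTransGen (rel p) _ _ := hcon _ _ hE1 hE2 hE1' hE2'
  have h2 := hrtg _ _ h1 hEH
  have hle : (Subgroup.zpowers (x : G)).map (MulAut.conj g).toMonoidHom ≤
      H ⊓ H.map (MulAut.conj g).toMonoidHom :=
    le_inf h2 (Subgroup.map_mono hEH)
  have hc : Nat.card ((Subgroup.zpowers (x : G)).map (MulAut.conj g).toMonoidHom) = p := by
    rw [Subgroup.card_map_of_injective (MulAut.conj g).injective, Nat.card_zpowers, hxo]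
  have := Subgroup.card_dvd_of_le hle
  rw [hc] at this
  exact this

theorem backward {p : ℕ} [Fact p.Prime] [Finite G] (hncon : ¬ Cfsg.IsKConnected p 1 G) :
    ∃ H : Subgroup G, H ≠ ⊤ ∧ p ∣ Nat.card ↥H ∧
      ∀ g : G, g ∉ H → ¬ p ∣ Nat.card ↥(H ⊓ H.map (MulAut.conj g).toMonoidHom) := by
  have hpp := (Fact.out : p.Prime)
  unfold Cfsg.IsKConnected at hncon
  simp only [not_forall] at hncon
  obtain ⟨E, E', hE1, hE2, hE1', hE2', hn⟩ := hncon
  have hn' : ¬ Relation.ReflTransGen (rel p) E E' := hn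
  let H : Subgroup G :=
    { carrier := {g | Relation.ReflTransGen (rel p) E (E.map (MulAut.conj g).toMonoidHom)}
      one_mem' := by
        change Relation.ReflTransGen (rel p) E (E.map (MulAut.conj (1:G)).toMonoidHom)
        rw [map_conj_one_kc]
      mul_mem' := by
        intro a b ha hb
        change Relation.ReflTransGen (rel p) E (E.map (MulAut.conj (a*b)).toMonoidHom)
        rw [← map_conj_mul_kc]
        exact Relation.ReflTransGen.trans ha (rtg_map hb a)
      inv_mem' := by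
        intro a ha
        change Relation.ReflTransGen (rel p) E (E.map (MulAut.conj a⁻¹).toMonoidHom)
        have h1 := rtg_map ha a⁻¹
        rw [map_conj_mul_kc, inv_mul_cancel, map_conj_one_kc] at h1
        exact rtg_symm h1 }
  have hmemH : ∀ g, g ∈ H ↔
      Relation.ReflTransGen (rel p) E (E.map (MulAut.conj g).toMonoidHom) := fun g => Iff.rfl
  have hEH : E ≤ H := by
    intro e he
    rw [hmemH]
    have : E.map (MulAut.conj e).toMonoidHom = E := by
      ext x
      constructor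
      · rintro ⟨y, hy, rfl⟩
        exact E.mul_mem (E.mul_mem he hy) (E.inv_mem he)
      · intro hx
        refine ⟨e⁻¹ * x * e, E.mul_mem (E.mul_mem (E.inv_mem he) hx) he, ?_⟩
        change e * (e⁻¹ * x * e) * e⁻¹ = x
        group
    rw [this]
  have hpE : p ∣ Nat.card E := by
    rcases (ea_isPGroup hE1).card_eq_or_dvd with h | h
    · rw [h, pow_one] at hE2; exact absurd hE2 (not_le.mpr hpp.one_lt)
    · exact h
  have hC : ∀ y ∈ H, orderOf y = p →
      Relation.ReflTransGen (rel p) E (Subgroup.zpowers y) := by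
    intro y hy hyo
    obtain ⟨hY1, hY2⟩ := zpowers_vertex (G := G) hyo
    have hK1 : IsPGroup p (E.subgroupOf H) := (ea_isPGroup hE1).comap_subtype
    have hK2 : IsPGroup p ((Subgroup.zpowers y).subgroupOf H) := (ea_isPGroup hY1).comap_subtype
    obtain ⟨Q1, hQ1⟩ := hK1.exists_le_sylow
    obtain ⟨Q2, hQ2⟩ := hK2.exists_le_sylow
    obtain ⟨h, hh⟩ := MulAction.exists_smul_eq H Q1 Q2
    have hQ : IsPGroup p ((Q2 : Subgroup H).map H.subtype) := Q2.2.map _
    have hle1 : E.map (MulAut.conj (h : G)).toMonoidHom ≤ (Q2 : Subgroup H).map H.subtype := by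
      rintro x ⟨e, he, rfl⟩
      have h1 : (⟨e, hEH he⟩ : H) ∈ (Q1 : Subgroup H) := hQ1 (Subgroup.mem_subgroupOf.mpr he)
      have h2 : h * ⟨e, hEH he⟩ * h⁻¹ ∈ (Q2 : Subgroup H) := by
        rw [← hh, Sylow.coe_subgroup_smul]
        exact Subgroup.smul_mem_pointwise_smul _ (MulAut.conj h) (Q1 : Subgroup H) h1
      exact ⟨_, h2, rfl⟩
    have hle2 : Subgroup.zpowers y ≤ (Q2 : Subgroup H).map H.subtype := by
      rw [Subgroup.zpowers_le]
      exact ⟨⟨y, hy⟩, hQ2 (Subgroup.mem_subgroupOf.mpr (Subgroup.mem_zpowers y)), rfl⟩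
    have h3 := rtg_of_le_pGroup (ea_map hE1 (h : G))
      (by rw [Subgroup.card_map_of_injective (MulAut.conj (h:G)).injective]; exact hE2)
      hY1 hY2 hQ hle1 hle2
    exact Relation.ReflTransGen.trans ((hmemH h).mp h.2) h3
  refine ⟨H, ?_, hpE.trans (Subgroup.card_dvd_of_le hEH), ?_⟩
  · intro htop
    obtain ⟨P, hP⟩ := (ea_isPGroup hE1).exists_le_sylow
    obtain ⟨P', hP'⟩ := (ea_isPGroup hE1').exists_le_sylow
    obtain ⟨g, hg⟩ := MulAction.exists_smul_eq G P P'
    have hgH : g ∈ H := htop ▸ Subgroup.mem_top g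
    have hle1 : E.map (MulAut.conj g).toMonoidHom ≤ (P' : Subgroup G) := by
      rintro x ⟨e, he, rfl⟩
      rw [← hg, Sylow.coe_subgroup_smul]
      exact Subgroup.smul_mem_pointwise_smul _ (MulAut.conj g) (P : Subgroup G) (hP he)
    have h3 := rtg_of_le_pGroup (ea_map hE1 g)
      (by rw [Subgroup.card_map_of_injective (MulAut.conj g).injective]; exact hE2)
      hE1' hE2' P'.2 hle1 hP'
    exact hn' (Relation.ReflTransGen.trans ((hmemH g).mp hgH) h3)
  · intro g hgH hdvd
    apply hgH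
    obtain ⟨x, hx⟩ := exists_prime_orderOf_dvd_card' p hdvd
    have hxo : orderOf (x : G) = p := by rw [Subgroup.orderOf_coe, hx]
    have hxH : (x : G) ∈ H := x.2.1
    obtain ⟨x', hx'H, hx'⟩ := x.2.2
    have hx'o : orderOf x' = p := by
      rw [← hxo, ← hx']
      exact (orderOf_injective (MulAut.conj g).toMonoidHom (MulAut.conj g).injective x').symm
    have h1 := hC _ hxH hxo
    have h2 := rtg_map (hC _ hx'H hx'o) g
    have h3 : (Subgroup.zpowers x').map (MulAut.conj g).toMonoidHom =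
        Subgroup.zpowers (x : G) := by
      rw [MonoidHom.map_zpowers, hx']
    rw [h3] at h2
    rw [hmemH]
    exact Relation.ReflTransGen.trans h1 (rtg_symm h2)

end Cfsg.Agent.Helper10.KConn
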