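import Mathlib
import Cfsg.Prelude.Def_Local
import Cfsg.Agent.Helper10.PLocal3
import Cfsg.Agent.Helper13.PSolv

set_option autoImplicit false
open Cfsg

namespace Cfsg.Agent.Helper10

universe u

open scoped commutatorElement

theorem isPSolvable_of_equiv {X Y : Type*} [Group X] [Group Y] {p : ℕ} (e : X ≃* Y)
    (h : IsPSolvable p X) : IsPSolvable p Y := by
  obtain ⟨n, H, h0, hl, hmono, hnorm, hstep⟩ := h
  refine ⟨n, fun i => (H i).map e.toMonoidHom, ?_, ?_, ?_, ?_, ?_⟩
  · show (H 0).map _ = ⊥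
    rw [h0, Subgroup.map_bot]
  · show (H (Fin.last n)).map _ = ⊤
    rw [hl]; exact Subgroup.map_top_of_surjective _ e.surjective
  · intro i j hij; exact Subgroup.map_mono (hmono hij)
  · intro i; exact (hnorm i).map _ e.surjective
  · intro i
    show (∃ m, ((H i.castSucc).map e.toMonoidHom).relIndex ((H i.succ).map e.toMonoidHom) =
      p ^ m) ∨ (((H i.castSucc).map e.toMonoidHom).relIndex
        ((H i.succ).map e.toMonoidHom)).Coprime p
    rw [Subgroup.relIndex_map_map_of_injective _ _ e.injective]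
    exact hstep i

theorem isPSolvable_of_surjective {X Y : Type u} [Group X] [Group Y] {p : ℕ} [Fact p.Prime]
    (f : X →* Y) (hf : Function.Surjective f) (h : IsPSolvable p X) : IsPSolvable p Y :=
  isPSolvable_of_equiv (QuotientGroup.quotientKerEquivOfSurjective f hf)
    (Cfsg.Agent.Helper13.isPSolvable_quotient h f.ker)

/-- If the centralizer of a Sylow `p`-subgroup of `O_{p',p}(G)` is `p`-solvable, then `G` is
`p`-constrained. -/
theorem pConstrained_of_centralizer_pSolvable {G : Type u} [Group G] [Finite G] (p : ℕ)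
    [Fact p.Prime] (P : Sylow p ↥(pPrimePCore p G)) (P' : Subgroup G)
    (hP' : P' = (P : Subgroup ↥(pPrimePCore p G)).map (pPrimePCore p G).subtype)
    (hsol : IsPSolvable p ↥(Subgroup.centralizer (P' : Set G))) :
    IsPConstrained p G := by
  rw [pConstrained_iff, pLayer_eq_bot_iff, eq_bot_iff]
  apply sSup_le
  intro Kb hKb
  exfalso
  have hP'p : IsPGroup p P' := by rw [hP']; exact P.2.map _
  have hmap : P'.map (QuotientGroup.mk' (pPrimeCore p G)) = pCore p (G ⧸ pPrimeCore p G) := by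
    rw [hP']; exact sylow_pPrimePCore_map p P
  have h1 : ⁅Kb, pCore p (G ⧸ pPrimeCore p G)⁆ = ⊥ :=
    comp_comm_normal_pGroup p hKb (Cfsg.Agent.S0010.pCore_normal p)
      (Cfsg.Agent.S0010.pCore_isPGroup p)
  have h2 : Kb ≤ (Subgroup.centralizer (P' : Set G)).map
      (QuotientGroup.mk' (pPrimeCore p G)) := by
    refine le_trans ?_ (centralizer_map_le_map_centralizer p P' hP'p)
    rw [hmap]
    exact Subgroup.commutator_eq_bot_iff_le_centralizer.mp h1
  obtain ⟨f, hf⟩ : ∃ f : ↥(Subgroup.centralizer (P' : Set G)) →* G ⧸ pPrimeCore p G,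
      f = (QuotientGroup.mk' (pPrimeCore p G)).comp
        (Subgroup.centralizer (P' : Set G)).subtype := ⟨_, rfl⟩
  have hsurj : Function.Surjective (f.subgroupComap Kb) := by
    rintro ⟨y, hy⟩
    obtain ⟨c, hc, rfl⟩ := h2 hy
    subst hf
    exact ⟨⟨⟨c, hc⟩, hy⟩, rfl⟩
  have hK2 : IsPSolvable p ↥(Kb.comap f) := Cfsg.Agent.Helper13.isPSolvable_subgroup hsol _
  have hKbs : IsPSolvable p ↥Kb := isPSolvable_of_surjective (f.subgroupComap Kb) hsurj hK2
  have hc := Cfsg.Agent.Helper13.qs_coprime_of_isPSolvable hKbs hKb.2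
  exact (Nat.Prime.coprime_iff_not_dvd Fact.out).mp hc.symm (comp_quot_dvd p hKb)

end Cfsg.Agent.Helper10
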