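import Mathlib
import Cfsg.Agent.Helper10.BenderPair

/-!
# Bender's theorem on primitive pairs (`F*(M₁) ≤ M₂`, `F*(M₂) ≤ M₁`)
-/

set_option autoImplicit false

namespace Cfsg.Agent.Helper10

universe u

open Cfsg

section primAbstract

variable {G : Type*} [Group G]

/-- The key commuting lemma: a `p'`-element centralizing `A = O_p(M)` centralizes the `p`-group
`B` (which centralizes the `p'`-part `Q` of `F(M)`). -/
theorem bender_comm_mem {p : ℕ} (M A Q FM B : Subgroup G)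
    (hAQ : FM ≤ A ⊔ Q)
    (hMA : ∀ g ∈ M, ∀ a ∈ A, g * a * g⁻¹ ∈ A) (hMQ : ∀ g ∈ M, ∀ y ∈ Q, g * y * g⁻¹ ∈ Q)
    (hA : IsPGroup p A) (hQ : ∀ y ∈ Q, (orderOf y).Coprime p)
    (hcomm : ∀ a ∈ A, ∀ y ∈ Q, a * y = y * a)
    (hCF : M ⊓ Subgroup.centralizer (FM : Set G) ≤ FM)
    (hBM : B ≤ M) (hB : IsPGroup p B) (hBQ : ∀ n ∈ B, ∀ y ∈ Q, n * y = y * n)
    (x : G) (hxM : x ∈ M) (hx : x ∈ Subgroup.centralizer (A : Set G))
    (hxo : (orderOf x).Coprime p)
    (n : G) (hn : n ∈ B) : x * n = n * x := by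
  have hnM : n ∈ M := hBM hn
  have hxA : ∀ a ∈ A, a * x = x * a := fun a ha => Subgroup.mem_centralizer_iff.mp hx a ha
  obtain ⟨u, hu⟩ : ∃ u, u = x * n * x⁻¹ * n⁻¹ := ⟨_, rfl⟩
  have huM : u ∈ M := by
    rw [hu]
    exact M.mul_mem (M.mul_mem (M.mul_mem hxM hnM) (M.inv_mem hxM)) (M.inv_mem hnM)
  have huA : ∀ a ∈ A, a * u = u * a := by
    intro a ha
    have h1 : n⁻¹ * a * n ∈ A := by simpa using hMA n⁻¹ (M.inv_mem hnM) a ha
    have h2 := hxA a ha
    have h3 := hxA _ h1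
    have h3' : (n⁻¹ * a * n) * x⁻¹ = x⁻¹ * (n⁻¹ * a * n) := by
      calc (n⁻¹ * a * n) * x⁻¹ = x⁻¹ * (x * (n⁻¹ * a * n)) * x⁻¹ := by group
        _ = x⁻¹ * ((n⁻¹ * a * n) * x) * x⁻¹ := by rw [h3]
        _ = x⁻¹ * (n⁻¹ * a * n) := by group
    calc a * u = (a * x) * n * x⁻¹ * n⁻¹ := by rw [hu]; group
      _ = (x * a) * n * x⁻¹ * n⁻¹ := by rw [h2]
      _ = x * n * ((n⁻¹ * a * n) * x⁻¹) * n⁻¹ := by group
      _ = x * n * (x⁻¹ * (n⁻¹ * a * n)) * n⁻¹ := by rw [h3']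
      _ = u * a := by rw [hu]; group
  have huQ : ∀ y ∈ Q, y * u = u * y := by
    intro y hy
    have h1 : x⁻¹ * y * x ∈ Q := by simpa using hMQ x⁻¹ (M.inv_mem hxM) y hy
    have h2 := hBQ n hn y hy
    have h3 := hBQ n hn _ h1
    have h2' : y * n⁻¹ = n⁻¹ * y := by
      calc y * n⁻¹ = n⁻¹ * (n * y) * n⁻¹ := by group
        _ = n⁻¹ * (y * n) * n⁻¹ := by rw [h2]
        _ = n⁻¹ * y := by group
    calc y * u = x * ((x⁻¹ * y * x) * n) * x⁻¹ * n⁻¹ := by rw [hu]; group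
      _ = x * (n * (x⁻¹ * y * x)) * x⁻¹ * n⁻¹ := by rw [h3]
      _ = x * n * x⁻¹ * (y * n⁻¹) := by group
      _ = x * n * x⁻¹ * (n⁻¹ * y) := by rw [h2']
      _ = u * y := by rw [hu]; group
  have huF : u ∈ Subgroup.centralizer (FM : Set G) := by
    rw [Subgroup.mem_centralizer_iff]
    intro f hf
    obtain ⟨a, ha, y, hy, rfl⟩ := mem_sup_of_comm hcomm (hAQ hf)
    rw [mul_assoc, huQ y hy, ← mul_assoc, huA a ha, mul_assoc]
  have huFM : u ∈ FM := hCF ⟨huM, huF⟩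
  obtain ⟨a, ha, b, hb, hab⟩ := mem_sup_of_comm hcomm (hAQ huFM)
  have hrel : n * x * n⁻¹ = u⁻¹ * x := by rw [hu]; group
  -- the `p'`-part `b` is trivial
  have hb1 : b = 1 := by
    obtain ⟨k, hk⟩ := hB ⟨n, hn⟩
    have hnk : n ^ p ^ k = 1 := by simpa using congrArg Subtype.val hk
    have key : ∀ j : ℕ, ∃ a' ∈ A, n ^ j * x * (n ^ j)⁻¹ = a' * (b ^ j)⁻¹ * x := by
      intro j
      induction j with
      | zero => exact ⟨1, A.one_mem, by simp⟩
      | succ j ih =>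
        obtain ⟨a', ha', h⟩ := ih
        have hna : n * a' * n⁻¹ ∈ A := hMA n hnM a' ha'
        have hnb : n * (b ^ j)⁻¹ * n⁻¹ = (b ^ j)⁻¹ := by
          have := hBQ n hn _ (Q.inv_mem (Q.pow_mem hb j))
          rw [this]; group
        refine ⟨n * a' * n⁻¹ * a⁻¹, A.mul_mem hna (A.inv_mem ha), ?_⟩
        have hc : (b ^ j)⁻¹ * b⁻¹ = (b ^ (j + 1))⁻¹ := by rw [pow_succ', mul_inv_rev]
        have hcb : a⁻¹ * (b ^ (j + 1))⁻¹ = (b ^ (j + 1))⁻¹ * a⁻¹ :=
          hcomm _ (A.inv_mem ha) _ (Q.inv_mem (Q.pow_mem hb (j + 1)))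
        calc n ^ (j + 1) * x * (n ^ (j + 1))⁻¹ = n * (n ^ j * x * (n ^ j)⁻¹) * n⁻¹ := by
              rw [pow_succ']; group
          _ = n * (a' * (b ^ j)⁻¹ * x) * n⁻¹ := by rw [h]
          _ = (n * a' * n⁻¹) * (n * (b ^ j)⁻¹ * n⁻¹) * (n * x * n⁻¹) := by group
          _ = (n * a' * n⁻¹) * (b ^ j)⁻¹ * ((a * b)⁻¹ * x) := by rw [hnb, hrel, hab]
          _ = (n * a' * n⁻¹) * (((b ^ j)⁻¹ * b⁻¹) * a⁻¹) * x := by rw [mul_inv_rev]; group
          _ = (n * a' * n⁻¹) * ((b ^ (j + 1))⁻¹ * a⁻¹) * x := by rw [hc]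
          _ = (n * a' * n⁻¹) * (a⁻¹ * (b ^ (j + 1))⁻¹) * x := by rw [hcb]
          _ = n * a' * n⁻¹ * a⁻¹ * (b ^ (j + 1))⁻¹ * x := by group
    obtain ⟨a', ha', h⟩ := key (p ^ k)
    rw [hnk] at h
    have h' : b ^ p ^ k = a' := by
      have : a' * (b ^ p ^ k)⁻¹ = 1 := by
        have h2 : x = a' * (b ^ p ^ k)⁻¹ * x := by simpa using h
        calc a' * (b ^ p ^ k)⁻¹ = (a' * (b ^ p ^ k)⁻¹ * x) * x⁻¹ := by group
          _ = x * x⁻¹ := by rw [← h2]
          _ = 1 := by group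
      exact (mul_inv_eq_one.mp this).symm
    obtain ⟨k', hk'⟩ := hA ⟨a', ha'⟩
    have hk'' : a' ^ p ^ k' = 1 := by simpa using congrArg Subtype.val hk'
    rw [← h', ← pow_mul, ← pow_add] at hk''
    exact bp_eq_one_of_coprime b (hQ b hb) _ hk''
  -- the `p`-part `a` is trivial
  have ha1 : a = 1 := by
    have hua : u = a := by rw [hab, hb1, mul_one]
    have hxn : x * n * x⁻¹ = a * n := by rw [← hua, hu]; group
    have hxa : Commute x a := (hxA a ha).symm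
    have key2 : ∀ j : ℕ, x ^ j * n * (x ^ j)⁻¹ = a ^ j * n := by
      intro j
      induction j with
      | zero => simp
      | succ j ih =>
        have hxaj : x * a ^ j * x⁻¹ = a ^ j := by
          have := (hxa.pow_right j).eq
          rw [this]; group
        calc x ^ (j + 1) * n * (x ^ (j + 1))⁻¹ = x * (x ^ j * n * (x ^ j)⁻¹) * x⁻¹ := by
              rw [pow_succ']; group
          _ = x * (a ^ j * n) * x⁻¹ := by rw [ih]
          _ = (x * a ^ j * x⁻¹) * (x * n * x⁻¹) := by group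
          _ = a ^ j * (a * n) := by rw [hxaj, hxn]
          _ = a ^ (j + 1) * n := by rw [pow_succ]; group
    have h := key2 (orderOf x)
    rw [pow_orderOf_eq_one] at h
    have h2 : a ^ orderOf x = 1 := by
      have h3 : n = a ^ orderOf x * n := by simpa using h
      calc a ^ orderOf x = (a ^ orderOf x * n) * n⁻¹ := by group
        _ = n * n⁻¹ := by rw [← h3]
        _ = 1 := by group
    obtain ⟨k', hk'⟩ := hA ⟨a, ha⟩
    have hk'' : a ^ p ^ k' = 1 := by simpa using congrArg Subtype.val hk'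
    have h4 : orderOf a ∣ orderOf x := orderOf_dvd_of_pow_eq_one h2
    have h5 : orderOf a ∣ p ^ k' := orderOf_dvd_of_pow_eq_one hk''
    have h6 : (orderOf x).Coprime (p ^ k') := Nat.Coprime.pow_right k' hxo
    exact orderOf_eq_one_iff.mp (Nat.eq_one_of_dvd_coprimes h6 h4 h5)
  have hu1 : u = 1 := by rw [hab, ha1, hb1, mul_one]
  rw [hu] at hu1
  calc x * n = (x * n * x⁻¹ * n⁻¹) * (n * x) := by group
    _ = n * x := by rw [hu1, one_mul]

end primAbstract

section primMain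

variable {G : Type u} [Group G]

/-- Bender's theorem for pairs with the primitivity axioms: `M ≠ N` with `F*(M) ≤ N`,
`F*(N) ≤ M` have `F*(M)`, `F*(N)` both `p`-groups for one prime `p`. -/
theorem bender_pair_gen [Finite G] (M N : Subgroup G) (hMN : M ≠ N)
    (hP1 : ∀ U : Subgroup G, U ≠ ⊥ → U ≤ M ⊓ N → N ≤ Subgroup.normalizer (U : Set G) →
      M ⊓ Subgroup.normalizer (U : Set G) ≤ N)
    (hP2 : ∀ U : Subgroup G, U ≠ ⊥ → U ≤ M ⊓ N → M ≤ Subgroup.normalizer (U : Set G) →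
      N ⊓ Subgroup.normalizer (U : Set G) ≤ M)
    (h1 : (generalizedFittingSubgroup ↥M).map M.subtype ≤ N)
    (h2 : (generalizedFittingSubgroup ↥N).map N.subtype ≤ M) :
    ∃ p : ℕ, p.Prime ∧ IsPGroup p ↥(generalizedFittingSubgroup ↥M) ∧
      IsPGroup p ↥(generalizedFittingSubgroup ↥N) := by
  classical
  have hPA : ∀ U : Subgroup G, U ≠ ⊥ → U ≤ M ⊓ N → M ≤ Subgroup.normalizer (U : Set G) →
      N ≤ Subgroup.normalizer (U : Set G) → False := by
    intro U hU hUle hMU hNU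
    have a1 : M ≤ N := fun x hx => hP1 U hU hUle hNU (Subgroup.mem_inf.mpr ⟨hx, hMU hx⟩)
    have a2 : N ≤ M := fun x hx => hP2 U hU hUle hMU (Subgroup.mem_inf.mpr ⟨hx, hNU hx⟩)
    exact hMN (le_antisymm a1 a2)
  -- Step 1: the layers are trivial
  have hE : (layer ↥M).map M.subtype = (layer ↥N).map N.subtype :=
    le_antisymm (layer_map_le_of_pair M N h1 h2) (layer_map_le_of_pair N M h2 h1)
  haveI := layer_normal ↥M
  haveI := layer_normal ↥N
  have hEM : layer ↥M = ⊥ := by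
    by_contra hne
    have hne' : (layer ↥M).map M.subtype ≠ ⊥ := fun h =>
      hne ((Subgroup.map_eq_bot_iff_of_injective _ M.subtype_injective).mp h)
    have n1 : M ≤ Subgroup.normalizer (((layer ↥M).map M.subtype : Subgroup G) : Set G) :=
      bp_le_normalizer_of_conj (fun g hg a ha => map_subtype_conj_mem _ hg ha)
    have n2 : N ≤ Subgroup.normalizer (((layer ↥M).map M.subtype : Subgroup G) : Set G) := by
      rw [hE]
      exact bp_le_normalizer_of_conj (fun g hg a ha => map_subtype_conj_mem _ hg ha)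
    have hle : (layer ↥M).map M.subtype ≤ M ⊓ N :=
      le_inf (map_subtype_le' _) ((Subgroup.map_mono (layer_le_gfitting _)).trans h1)
    exact hPA _ hne' hle n1 n2
  have hEN : layer ↥N = ⊥ := by
    rw [hEM, Subgroup.map_bot] at hE
    exact (Subgroup.map_eq_bot_iff_of_injective _ N.subtype_injective).mp hE.symm
  have hgM : generalizedFittingSubgroup ↥M = fittingSubgroup ↥M := by
    show layer ↥M ⊔ fittingSubgroup ↥M = _
    rw [hEM, bot_sup_eq]
  have hgN : generalizedFittingSubgroup ↥N = fittingSubgroup ↥N := by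
    show layer ↥N ⊔ fittingSubgroup ↥N = _
    rw [hEN, bot_sup_eq]
  have hCM := inf_centralizer_gfitting_le M
  have hCN := inf_centralizer_gfitting_le N
  rw [hgM] at h1 hCM
  rw [hgN] at h2 hCN
  haveI := fitting_normal ↥M
  haveI := fitting_normal ↥N
  obtain ⟨FM, hFM⟩ : ∃ FM, FM = (fittingSubgroup ↥M).map M.subtype := ⟨_, rfl⟩
  obtain ⟨FN, hFN⟩ : ∃ FN, FN = (fittingSubgroup ↥N).map N.subtype := ⟨_, rfl⟩
  rw [← hFM] at h1 hCM
  rw [← hFN] at h2 hCN
  have hFMM : FM ≤ M := by rw [hFM]; exact map_subtype_le' _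
  have hFNN : FN ≤ N := by rw [hFN]; exact map_subtype_le' _
  have hMF : ∀ g ∈ M, ∀ a ∈ FM, g * a * g⁻¹ ∈ FM := by
    rw [hFM]; exact fun g hg a ha => map_subtype_conj_mem _ hg ha
  have hNF : ∀ g ∈ N, ∀ a ∈ FN, g * a * g⁻¹ ∈ FN := by
    rw [hFN]; exact fun g hg a ha => map_subtype_conj_mem _ hg ha
  -- Step 2: the Fitting subgroups are nontrivial
  have hbot_aux : ∀ (M FM : Subgroup G),
      M ⊓ Subgroup.centralizer (FM : Set G) ≤ FM → FM = ⊥ → M = ⊥ := by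
    intro M FM hCM h
    rw [eq_bot_iff]
    intro x hx
    have hxc : x ∈ Subgroup.centralizer (FM : Set G) := by
      rw [Subgroup.mem_centralizer_iff]
      intro f hf
      have hf' : f = 1 := by rw [h] at hf; simpa using hf
      rw [hf']; simp
    have : x ∈ FM := hCM (Subgroup.mem_inf.mpr ⟨hx, hxc⟩)
    rw [h] at this; exact this
  have hFMne : FM ≠ ⊥ := by
    intro h
    have hMb := hbot_aux M FM hCM h
    have hFNb : FN = ⊥ := by rw [eq_bot_iff, ← hMb]; exact h2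
    exact hMN (hMb.trans (hbot_aux N FN hCN hFNb).symm)
  have hFNne : FN ≠ ⊥ := by
    intro h
    have hNb := hbot_aux N FN hCN h
    have hFMb : FM = ⊥ := by rw [eq_bot_iff, ← hNb]; exact h1
    exact hMN ((hbot_aux M FM hCM hFMb).trans hNb.symm)
  -- Step 3: a common prime
  have hD : FM ⊓ FN ≠ ⊥ := by
    intro hD
    have hcomm : ∀ f ∈ FM, ∀ n ∈ FN, f * n = n * f := by
      intro f hf n hn
      have hc1 : f * n * f⁻¹ * n⁻¹ ∈ FN := FN.mul_mem (hNF f (h1 hf) n hn) (FN.inv_mem hn)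
      have hc2 : f * n * f⁻¹ * n⁻¹ ∈ FM := by
        have := hMF n (h2 hn) f⁻¹ (FM.inv_mem hf)
        have h3 : f * n * f⁻¹ * n⁻¹ = f * (n * f⁻¹ * n⁻¹) := by group
        rw [h3]; exact FM.mul_mem hf this
      have : f * n * f⁻¹ * n⁻¹ ∈ FM ⊓ FN := Subgroup.mem_inf.mpr ⟨hc2, hc1⟩
      rw [hD, Subgroup.mem_bot] at this
      calc f * n = (f * n * f⁻¹ * n⁻¹) * (n * f) := by group
        _ = n * f := by rw [this, one_mul]
    have hle : FN ≤ FM := by
      intro n hn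
      have hnc : n ∈ Subgroup.centralizer (FM : Set G) := by
        rw [Subgroup.mem_centralizer_iff]
        intro f hf
        exact hcomm f hf n hn
      exact hCM (Subgroup.mem_inf.mpr ⟨h2 hn, hnc⟩)
    have : FN ≤ FM ⊓ FN := le_inf hle le_rfl
    rw [hD, le_bot_iff] at this
    exact hFNne this
  have hcard : Nat.card ↥(FM ⊓ FN) ≠ 1 := fun h => hD (Subgroup.card_eq_one.mp h)
  obtain ⟨p, hp, hpd⟩ := Nat.exists_prime_and_dvd hcard
  haveI : Fact p.Prime := ⟨hp⟩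
  have hpM : p ∣ Nat.card ↥(fittingSubgroup ↥M) := by
    have h := hpd.trans (Subgroup.card_dvd_of_le (inf_le_left : FM ⊓ FN ≤ FM))
    rwa [hFM, Subgroup.card_map_of_injective M.subtype_injective] at h
  have hpN : p ∣ Nat.card ↥(fittingSubgroup ↥N) := by
    have h := hpd.trans (Subgroup.card_dvd_of_le (inf_le_right : FM ⊓ FN ≤ FN))
    rwa [hFN, Subgroup.card_map_of_injective N.subtype_injective] at h
  have hAne' : pCore p ↥M ≠ ⊥ := bp_pCore_ne_bot p hpM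
  have hBne' : pCore p ↥N ≠ ⊥ := bp_pCore_ne_bot p hpN
  -- Step 4
  haveI := Cfsg.Agent.Helper28.pCore_normal p ↥M
  haveI := Cfsg.Agent.Helper28.pCore_normal p ↥N
  haveI := bp_pPrimeCore_normal p ↥M
  haveI := bp_pPrimeCore_normal p ↥N
  obtain ⟨A, hAdef⟩ : ∃ A, A = (pCore p ↥M).map M.subtype := ⟨_, rfl⟩
  obtain ⟨B, hBdef⟩ : ∃ B, B = (pCore p ↥N).map N.subtype := ⟨_, rfl⟩
  obtain ⟨QM, hQMdef⟩ : ∃ QM, QM = (pPrimeCore p ↥M ⊓ fittingSubgroup ↥M).map M.subtype :=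
    ⟨_, rfl⟩
  obtain ⟨QN, hQNdef⟩ : ∃ QN, QN = (pPrimeCore p ↥N ⊓ fittingSubgroup ↥N).map N.subtype :=
    ⟨_, rfl⟩
  have hAne : A ≠ ⊥ := by
    rw [hAdef]
    exact fun h => hAne' ((Subgroup.map_eq_bot_iff_of_injective _ M.subtype_injective).mp h)
  have hBne : B ≠ ⊥ := by
    rw [hBdef]
    exact fun h => hBne' ((Subgroup.map_eq_bot_iff_of_injective _ N.subtype_injective).mp h)
  have hAF : A ≤ FM := by rw [hAdef, hFM]; exact Subgroup.map_mono (bp_pCore_le_fitting p)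
  have hBF : B ≤ FN := by rw [hBdef, hFN]; exact Subgroup.map_mono (bp_pCore_le_fitting p)
  have hQMF : QM ≤ FM := by rw [hQMdef, hFM]; exact Subgroup.map_mono inf_le_right
  have hQNF : QN ≤ FN := by rw [hQNdef, hFN]; exact Subgroup.map_mono inf_le_right
  have hFAQ : FM ≤ A ⊔ QM := by
    rw [hAdef, hQMdef, hFM, ← Subgroup.map_sup]; exact Subgroup.map_mono (bp_fitting_le_sup p)
  have hFBQ : FN ≤ B ⊔ QN := by
    rw [hBdef, hQNdef, hFN, ← Subgroup.map_sup]; exact Subgroup.map_mono (bp_fitting_le_sup p)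
  have hMA : ∀ g ∈ M, ∀ a ∈ A, g * a * g⁻¹ ∈ A := by
    rw [hAdef]; exact fun g hg a ha => map_subtype_conj_mem _ hg ha
  have hNB : ∀ g ∈ N, ∀ a ∈ B, g * a * g⁻¹ ∈ B := by
    rw [hBdef]; exact fun g hg a ha => map_subtype_conj_mem _ hg ha
  have hMQ : ∀ g ∈ M, ∀ a ∈ QM, g * a * g⁻¹ ∈ QM := by
    rw [hQMdef]; exact fun g hg a ha => map_subtype_conj_mem _ hg ha
  have hNQ : ∀ g ∈ N, ∀ a ∈ QN, g * a * g⁻¹ ∈ QN := by
    rw [hQNdef]; exact fun g hg a ha => map_subtype_conj_mem _ hg ha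
  have hAp : IsPGroup p A := by
    rw [hAdef]; exact (Cfsg.Agent.Helper28.pCore_isPGroup p ↥M).map _
  have hBp : IsPGroup p B := by
    rw [hBdef]; exact (Cfsg.Agent.Helper28.pCore_isPGroup p ↥N).map _
  have hQMo : ∀ y ∈ QM, (orderOf y).Coprime p := by
    rw [hQMdef]
    rintro _ ⟨y', hy', rfl⟩
    rw [Subgroup.coe_subtype, Subgroup.orderOf_coe]
    exact bp_orderOf_coprime p hy'.1
  have hQNo : ∀ y ∈ QN, (orderOf y).Coprime p := by
    rw [hQNdef]
    rintro _ ⟨y', hy', rfl⟩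
    rw [Subgroup.coe_subtype, Subgroup.orderOf_coe]
    exact bp_orderOf_coprime p hy'.1
  have hcommM : ∀ a ∈ A, ∀ y ∈ QM, a * y = y * a :=
    bp_comm_of_normalize hAp hQMo (fun a ha y hy => hMQ a (hFMM (hAF ha)) y hy)
      (fun y hy a ha => hMA y (hFMM (hQMF hy)) a ha)
  have hcommN : ∀ a ∈ B, ∀ y ∈ QN, a * y = y * a :=
    bp_comm_of_normalize hBp hQNo (fun a ha y hy => hNQ a (hFNN (hBF ha)) y hy)
      (fun y hy a ha => hNB y (hFNN (hQNF hy)) a ha)
  have hBQM : ∀ n ∈ B, ∀ y ∈ QM, n * y = y * n :=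
    bp_comm_of_normalize hBp hQMo (fun n hn y hy => hMQ n (h2 (hBF hn)) y hy)
      (fun y hy n hn => hNB y (h1 (hQMF hy)) n hn)
  have hAQN : ∀ a ∈ A, ∀ y ∈ QN, a * y = y * a :=
    bp_comm_of_normalize hAp hQNo (fun a ha y hy => hNQ a (h1 (hAF ha)) y hy)
      (fun y hy a ha => hMA y (h2 (hQNF hy)) a ha)
  have hAM : A ≤ M := hAF.trans hFMM
  have hBN : B ≤ N := hBF.trans hFNN
  have hBMN : B ≤ M ⊓ N := le_inf (hBF.trans h2) hBN
  have hAMN : A ≤ M ⊓ N := le_inf hAM (hAF.trans h1)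
  have c1 : ∀ x ∈ M, x ∈ Subgroup.centralizer (A : Set G) → (orderOf x).Coprime p →
      x ∈ N ∧ x ∈ Subgroup.centralizer (B : Set G) := by
    intro x hxM hx hxo
    have hxB : x ∈ Subgroup.centralizer (B : Set G) := by
      rw [Subgroup.mem_centralizer_iff]
      intro n hn
      exact (bender_comm_mem M A QM FM B hFAQ hMA hMQ hAp hQMo hcommM hCM (hBF.trans h2) hBp
        hBQM x hxM hx hxo n hn).symm
    exact ⟨hP1 B hBne hBMN (bp_le_normalizer_of_conj hNB)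
      (Subgroup.mem_inf.mpr ⟨hxM, Subgroup.centralizer_le_normalizer _ hxB⟩), hxB⟩
  have c2 : ∀ x ∈ N, x ∈ Subgroup.centralizer (B : Set G) → (orderOf x).Coprime p →
      x ∈ M ∧ x ∈ Subgroup.centralizer (A : Set G) := by
    intro x hxN hx hxo
    have hxA : x ∈ Subgroup.centralizer (A : Set G) := by
      rw [Subgroup.mem_centralizer_iff]
      intro n hn
      exact (bender_comm_mem N B QN FN A hFBQ hNB hNQ hBp hQNo hcommN hCN (hAF.trans h1) hAp
        hAQN x hxN hx hxo n hn).symm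
    exact ⟨hP2 A hAne hAMN (bp_le_normalizer_of_conj hMA)
      (Subgroup.mem_inf.mpr ⟨hxN, Subgroup.centralizer_le_normalizer _ hxA⟩), hxA⟩
  obtain ⟨S, hS⟩ : ∃ S : Set G,
      S = {x | x ∈ M ∧ x ∈ Subgroup.centralizer (A : Set G) ∧ (orderOf x).Coprime p} := ⟨_, rfl⟩
  have hconj_ord : ∀ g x : G, orderOf (g * x * g⁻¹) = orderOf x := fun g x =>
    orderOf_injective (MulAut.conj g).toMonoidHom (MulAut.conj g).injective x
  have hU : Subgroup.closure S = ⊥ := by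
    by_contra hUne
    have hUM : Subgroup.closure S ≤ M :=
      (Subgroup.closure_le _).mpr (fun x hx => by rw [hS] at hx; exact hx.1)
    have hUN : Subgroup.closure S ≤ N :=
      (Subgroup.closure_le _).mpr (fun x hx => by
        rw [hS] at hx; exact (c1 x hx.1 hx.2.1 hx.2.2).1)
    have hgen : ∀ (H : Subgroup G), (∀ g ∈ H, ∀ x ∈ S, g * x * g⁻¹ ∈ S) →
        ∀ g ∈ H, ∀ u ∈ Subgroup.closure S, g * u * g⁻¹ ∈ Subgroup.closure S := by
      intro H hH g hg u hu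
      induction hu using Subgroup.closure_induction with
      | mem x hx => exact Subgroup.subset_closure (hH g hg x hx)
      | one => simp
      | mul x y _ _ hx hy =>
        have : g * (x * y) * g⁻¹ = (g * x * g⁻¹) * (g * y * g⁻¹) := by group
        rw [this]; exact Subgroup.mul_mem _ hx hy
      | inv x _ hx =>
        have : g * x⁻¹ * g⁻¹ = (g * x * g⁻¹)⁻¹ := by group
        rw [this]; exact Subgroup.inv_mem _ hx
    have hconjM : ∀ g ∈ M, ∀ x ∈ S, g * x * g⁻¹ ∈ S := by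
      intro g hg x hx
      rw [hS] at hx ⊢
      exact ⟨M.mul_mem (M.mul_mem hg hx.1) (M.inv_mem hg),
        conj_mem_centralizer_of_normalizes hMA hg hx.2.1, by rw [hconj_ord]; exact hx.2.2⟩
    have hconjN : ∀ g ∈ N, ∀ x ∈ S, g * x * g⁻¹ ∈ S := by
      intro g hg x hx
      rw [hS] at hx ⊢
      have h3 : (orderOf (g * x * g⁻¹)).Coprime p := by rw [hconj_ord]; exact hx.2.2
      obtain ⟨hxN, hxB⟩ := c1 x hx.1 hx.2.1 hx.2.2
      obtain ⟨r1, r2⟩ := c2 _ (N.mul_mem (N.mul_mem hg hxN) (N.inv_mem hg))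
        (conj_mem_centralizer_of_normalizes hNB hg hxB) h3
      exact ⟨r1, r2, h3⟩
    exact hPA _ hUne (le_inf hUM hUN) (bp_le_normalizer_of_conj (hgen M hconjM))
      (bp_le_normalizer_of_conj (hgen N hconjN))
  have hS1 : ∀ x ∈ S, x = 1 := by
    intro x hx
    have : x ∈ Subgroup.closure S := Subgroup.subset_closure hx
    rw [hU] at this
    exact Subgroup.mem_bot.mp this
  have hQM1 : ∀ y ∈ QM, y = 1 := by
    intro y hy
    apply hS1
    rw [hS]
    refine ⟨hFMM (hQMF hy), ?_, hQMo y hy⟩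
    rw [Subgroup.mem_centralizer_iff]
    intro a ha
    exact hcommM a ha y hy
  have hQN1 : ∀ y ∈ QN, y = 1 := by
    intro y hy
    apply hS1
    rw [hS]
    have hyB : y ∈ Subgroup.centralizer (B : Set G) := by
      rw [Subgroup.mem_centralizer_iff]
      intro b hb
      exact hcommN b hb y hy
    obtain ⟨r1, r2⟩ := c2 y (hFNN (hQNF hy)) hyB (hQNo y hy)
    exact ⟨r1, r2, hQNo y hy⟩
  have hFMA : FM ≤ A := by
    intro f hf
    obtain ⟨a, ha, y, hy, rfl⟩ := mem_sup_of_comm hcommM (hFAQ hf)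
    rw [hQM1 y hy, mul_one]; exact ha
  have hFNB : FN ≤ B := by
    intro f hf
    obtain ⟨a, ha, y, hy, rfl⟩ := mem_sup_of_comm hcommN (hFBQ hf)
    rw [hQN1 y hy, mul_one]; exact ha
  refine ⟨p, hp, ?_, ?_⟩
  · rintro ⟨x, hx⟩
    have hx' : x ∈ fittingSubgroup ↥M := hgM ▸ hx
    have hxA : (x : G) ∈ A := hFMA (by rw [hFM]; exact ⟨x, hx', rfl⟩)
    obtain ⟨k, hk⟩ := hAp ⟨_, hxA⟩
    have hk' : (x : G) ^ p ^ k = 1 := by simpa using congrArg Subtype.val hk
    refine ⟨k, ?_⟩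
    apply Subtype.ext
    apply Subtype.ext
    simpa using hk'
  · rintro ⟨x, hx⟩
    have hx' : x ∈ fittingSubgroup ↥N := hgN ▸ hx
    have hxB : (x : G) ∈ B := hFNB (by rw [hFN]; exact ⟨x, hx', rfl⟩)
    obtain ⟨k, hk⟩ := hBp ⟨_, hxB⟩
    have hk' : (x : G) ^ p ^ k = 1 := by simpa using congrArg Subtype.val hk
    refine ⟨k, ?_⟩
    apply Subtype.ext
    apply Subtype.ext
    simpa using hk'

end primMain

end Cfsg.Agent.Helper10
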