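import Mathlib
import Cfsg.Prelude.Def_Local
import Cfsg.Prelude.Def_Transfer

/-!
# A non-complete solvable signalizer functor of rank 2 (in the symmetric group of degree 5)
-/

set_option autoImplicit false

namespace Cfsg.Agent.Helper10.SigEx

abbrev X := Equiv.Perm (Fin 5)

def a : X := Equiv.swap 0 1
def b : X := Equiv.swap 2 3
def c₁ : X := Equiv.swap 2 3 * Equiv.swap 3 4
def c₂ : X := Equiv.swap 0 1 * Equiv.swap 1 4

def A : Subgroup X where
  carrier := {1, a, b, a * b}
  mul_mem' := by
    rintro x y (rfl | rfl | rfl | rfl) (rfl | rfl | rfl | rfl) <;>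
      simp only [Set.mem_insert_iff, Set.mem_singleton_iff] <;> decide
  one_mem' := by simp
  inv_mem' := by
    rintro x (rfl | rfl | rfl | rfl) <;>
      simp only [Set.mem_insert_iff, Set.mem_singleton_iff] <;> decide

def θ (x : X) : Subgroup X :=
  if x = a then Subgroup.zpowers c₁ else if x = b then Subgroup.zpowers c₂ else ⊥

theorem mem_A {x : X} (hx : x ∈ A) : x = 1 ∨ x = a ∨ x = b ∨ x = a * b := hx

theorem order_c₁ : orderOf c₁ = 3 := orderOf_eq_prime (by decide) (by decide)
theorem order_c₂ : orderOf c₂ = 3 := orderOf_eq_prime (by decide) (by decide)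

theorem mem_zpowers_c₁_iff {u : X} :
    u ∈ Subgroup.zpowers c₁ ↔ u = 1 ∨ u = c₁ ∨ u = c₁ * c₁ := by
  constructor
  · intro hu
    rw [mem_zpowers_iff_mem_range_orderOf, order_c₁] at hu
    obtain ⟨i, hi, rfl⟩ := Finset.mem_image.mp hu
    rw [Finset.mem_range] at hi
    interval_cases i
    · left; simp
    · right; left; simp
    · right; right; exact pow_two c₁
  · rintro (rfl | rfl | rfl)
    · exact Subgroup.one_mem _
    · exact Subgroup.mem_zpowers _
    · exact Subgroup.mul_mem _ (Subgroup.mem_zpowers _) (Subgroup.mem_zpowers _)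

theorem mem_zpowers_c₂_iff {u : X} :
    u ∈ Subgroup.zpowers c₂ ↔ u = 1 ∨ u = c₂ ∨ u = c₂ * c₂ := by
  constructor
  · intro hu
    rw [mem_zpowers_iff_mem_range_orderOf, order_c₂] at hu
    obtain ⟨i, hi, rfl⟩ := Finset.mem_image.mp hu
    rw [Finset.mem_range] at hi
    interval_cases i
    · left; simp
    · right; left; simp
    · right; right; exact pow_two c₂
  · rintro (rfl | rfl | rfl)
    · exact Subgroup.one_mem _
    · exact Subgroup.mem_zpowers _
    · exact Subgroup.mul_mem _ (Subgroup.mem_zpowers _) (Subgroup.mem_zpowers _)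

theorem θa : θ a = Subgroup.zpowers c₁ := if_pos rfl
theorem θb : θ b = Subgroup.zpowers c₂ := by
  unfold θ; rw [if_neg (by decide), if_pos rfl]
theorem θab : θ (a * b) = ⊥ := by
  unfold θ; rw [if_neg (by decide), if_neg (by decide)]

theorem elemAb : Cfsg.IsElementaryAbelian 2 A := by
  refine ⟨⟨⟨?_⟩⟩, ?_⟩
  · rintro ⟨x, hx⟩ ⟨y, hy⟩
    apply Subtype.ext
    show x * y = y * x
    rcases mem_A hx with rfl | rfl | rfl | rfl <;> rcases mem_A hy with rfl | rfl | rfl | rfl <;>
      decide
  · intro x hx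
    rcases mem_A hx with rfl | rfl | rfl | rfl <;> decide

theorem card_A : Nat.card ↥A = 4 := by
  have h : (A : Set X) = ((({1, a, b, a * b} : Finset X)) : Set X) := by
    ext x
    show x ∈ ({1, a, b, a * b} : Set X) ↔ _
    simp
  show Nat.card ↥(A : Set X) = 4
  rw [Nat.card_coe_set_eq, h, Set.ncard_coe_finset]
  decide

theorem isSig : Cfsg.IsSolvableSignalizerFunctor 2 A θ := by
  refine ⟨⟨?_, ?_, ?_, ?_⟩, ?_⟩
  · intro x hx hx1
    rcases mem_A hx with rfl | rfl | rfl | rfl
    · exact absurd rfl hx1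
    · rw [θa, Subgroup.zpowers_le]
      refine Subgroup.mem_centralizer_iff.mpr ?_
      intro h hh
      rw [Set.mem_singleton_iff.mp hh]
      decide
    · rw [θb, Subgroup.zpowers_le]
      refine Subgroup.mem_centralizer_iff.mpr ?_
      intro h hh
      rw [Set.mem_singleton_iff.mp hh]
      decide
    · rw [θab]; exact bot_le
  · intro x hx hx1
    rcases mem_A hx with rfl | rfl | rfl | rfl
    · exact absurd rfl hx1
    · rw [θa, Nat.card_zpowers, order_c₁]; decide
    · rw [θb, Nat.card_zpowers, order_c₂]; decide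
    · rw [θab, Subgroup.card_bot]; decide
  · intro x hx hx1 y hy u hu
    rcases mem_A hx with rfl | rfl | rfl | rfl
    · exact absurd rfl hx1
    · rw [θa] at hu ⊢
      rcases mem_zpowers_c₁_iff.mp hu with rfl | rfl | rfl <;>
        rcases mem_A hy with rfl | rfl | rfl | rfl <;>
          (rw [mem_zpowers_c₁_iff]; decide)
    · rw [θb] at hu ⊢
      rcases mem_zpowers_c₂_iff.mp hu with rfl | rfl | rfl <;>
        rcases mem_A hy with rfl | rfl | rfl | rfl <;>
          (rw [mem_zpowers_c₂_iff]; decide)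
    · rw [θab] at hu ⊢
      rw [Subgroup.mem_bot] at hu ⊢
      rw [hu]; group
  · intro x hx hx1 y hy hy1 u hu
    obtain ⟨hu1, hu2⟩ := hu
    have hcomm : y * u = u * y := Subgroup.mem_centralizer_iff.mp hu2 y rfl
    rcases mem_A hx with rfl | rfl | rfl | rfl
    · exact absurd rfl hx1
    · rw [θa] at hu1
      rcases mem_zpowers_c₁_iff.mp hu1 with rfl | rfl | rfl <;>
        rcases mem_A hy with rfl | rfl | rfl | rfl <;>
          first
          | exact Subgroup.one_mem _
          | exact absurd rfl hy1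
          | exact absurd hcomm (by decide)
          | (rw [θa, mem_zpowers_c₁_iff]; decide)
    · rw [θb] at hu1
      rcases mem_zpowers_c₂_iff.mp hu1 with rfl | rfl | rfl <;>
        rcases mem_A hy with rfl | rfl | rfl | rfl <;>
          first
          | exact Subgroup.one_mem _
          | exact absurd rfl hy1
          | exact absurd hcomm (by decide)
          | (rw [θb, mem_zpowers_c₂_iff]; decide)
    · rw [θab] at hu1
      rw [Subgroup.mem_bot.mp hu1]; exact Subgroup.one_mem _
  · intro x hx hx1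
    rcases mem_A hx with rfl | rfl | rfl | rfl
    · exact absurd rfl hx1
    · rw [θa]
      exact Group.isSolvable_of_comm (fun x y =>
        (inferInstance : IsMulCommutative (Subgroup.zpowers c₁)).is_comm.comm x y)
    · rw [θb]
      exact Group.isSolvable_of_comm (fun x y =>
        (inferInstance : IsMulCommutative (Subgroup.zpowers c₂)).is_comm.comm x y)
    · rw [θab]
      infer_instance

theorem not_complete : ¬ Cfsg.IsCompleteSignalizerFunctor 2 A θ := by
  rintro ⟨_, X₀, _, hX2, hXc⟩
  have ha : a ∈ A := Or.inr (Or.inl rfl)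
  have hb : b ∈ A := Or.inr (Or.inr (Or.inl rfl))
  have h1 : c₁ ∈ X₀ := by
    have h := hXc a ha (by decide)
    have h' : c₁ ∈ θ a := by rw [θa]; exact Subgroup.mem_zpowers c₁
    rw [← h] at h'; exact h'.1
  have h2 : c₂ ∈ X₀ := by
    have h := hXc b hb (by decide)
    have h' : c₂ ∈ θ b := by rw [θb]; exact Subgroup.mem_zpowers c₂
    rw [← h] at h'; exact h'.1
  have hw : c₁ * c₂ * c₁ * (c₂ * c₂) ∈ X₀ :=
    X₀.mul_mem (X₀.mul_mem (X₀.mul_mem h1 h2) h1) (X₀.mul_mem h2 h2)
  have ho : orderOf (c₁ * c₂ * c₁ * (c₂ * c₂)) = 2 := orderOf_eq_prime (by decide) (by decide)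
  apply hX2
  rw [← ho]
  exact Subgroup.orderOf_dvd_natCard _ hw

end Cfsg.Agent.Helper10.SigEx
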