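import Mathlib
import Cfsg.Agent.Helper10.NormP

set_option autoImplicit false
open Cfsg

namespace Cfsg.Agent.Helper10

universe u

/-- transport of "component of a subgroup" along an automorphism -/
theorem comp_subgroupOf_map_equiv {G : Type*} [Group G] (e : G ≃* G) (L C : Subgroup G)
    (hLC : L ≤ C) (h : IsComponent (L.subgroupOf C)) :
    IsComponent ((L.map e.toMonoidHom).subgroupOf (C.map e.toMonoidHom)) := by
  have hLC' : L.map e.toMonoidHom ≤ C.map e.toMonoidHom := Subgroup.map_mono hLC
  have heq : (L.map e.toMonoidHom).subgroupOf (C.map e.toMonoidHom) =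
      (L.subgroupOf C).comap (C.equivMapOfInjective e.toMonoidHom e.injective).symm.toMonoidHom := by
    ext z
    have hz : e.symm (z : G) =
        (((C.equivMapOfInjective e.toMonoidHom e.injective).symm z : C) : G) := by
      apply e.injective
      rw [e.apply_symm_apply]
      have := Subgroup.coe_equivMapOfInjective_apply C e.toMonoidHom e.injective
        ((C.equivMapOfInjective e.toMonoidHom e.injective).symm z)
      rw [MulEquiv.apply_symm_apply] at this
      exact this
    rw [Subgroup.mem_subgroupOf, Subgroup.mem_comap, Subgroup.mem_subgroupOf,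
      Subgroup.mem_map_equiv, hz]
    rfl
  refine ⟨?_, ?_⟩
  · rw [heq]
    exact h.1.comap _
  · have e1 := Subgroup.subgroupOfEquivOfLe hLC'
    have e2 := L.equivMapOfInjective e.toMonoidHom e.injective
    have e3 := Subgroup.subgroupOfEquivOfLe hLC
    exact qs_of_equiv e1.symm (qs_of_equiv e2 (qs_of_equiv e3 h.2))

theorem centralizer_singleton_conj {G : Type*} [Group G] (y g : G) :
    Subgroup.centralizer ({g * y * g⁻¹} : Set G) =
      (Subgroup.centralizer ({y} : Set G)).map (MulAut.conj g).toMonoidHom := by
  ext z
  rw [Subgroup.mem_map_equiv, Subgroup.mem_centralizer_iff, Subgroup.mem_centralizer_iff]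
  simp only [Set.mem_singleton_iff, forall_eq, MulAut.conj_symm_apply]
  constructor
  · intro h
    have : y * (g⁻¹ * z * g) = g⁻¹ * ((g * y * g⁻¹) * z) * g := by group
    rw [this, h]; group
  · intro h
    have : g * y * g⁻¹ * z = g * (y * (g⁻¹ * z * g)) * g⁻¹ := by group
    rw [this, h]; group

/-- transport of "component of the centralizer of `y`" under conjugation -/
theorem comp_centralizer_conj {G : Type*} [Group G] (y : G) (L : Subgroup G) (g : G)
    (hLy : L ≤ Subgroup.centralizer ({y} : Set G))
    (hL : IsComponent (L.subgroupOf (Subgroup.centralizer ({y} : Set G)))) :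
    L.map (MulAut.conj g).toMonoidHom ≤ Subgroup.centralizer ({g * y * g⁻¹} : Set G) ∧
      IsComponent ((L.map (MulAut.conj g).toMonoidHom).subgroupOf
        (Subgroup.centralizer ({g * y * g⁻¹} : Set G))) := by
  rw [centralizer_singleton_conj]
  exact ⟨Subgroup.map_mono hLy, comp_subgroupOf_map_equiv (MulAut.conj g) L _ hLy hL⟩

end Cfsg.Agent.Helper10
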