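import Mathlib
import Cfsg.Agent.Helper10.Transit

/-!
# Consequences of the Transitivity Theorem
-/

set_option autoImplicit false

universe u

open scoped Pointwise

namespace Cfsg.Agent.Helper10

open Cfsg

section
variable {G : Type u} [Group G] [Finite G]

theorem maxQ_sylow_member (p : ℕ) [hp : Fact p.Prime] (A : Subgroup G)
    (hA : IsElementaryAbelian p A) (hA3 : p ^ 3 ≤ Nat.card ↥A) (θ : G → Subgroup G)
    (hθ : IsSolvableSignalizerFunctor p A θ) (q : ℕ) [Fact q.Prime] {Q : Subgroup G}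
    (hQ : IsMaxQ p A θ q Q) (H : Subgroup G) (hH : H ∈ signalizerFamily p A θ) :
    ∃ c ∈ signalizerInf A θ, ∃ S : Sylow q ↥H,
      (S : Subgroup ↥H).map H.subtype = Q.map (MulAut.conj c).toMonoidHom ⊓ H := by
  have hAp : IsPGroup p A := isPGroup_of_elementaryAbelian hA
  have hAsolv : Group.IsSolvable A := solvable_of_pGroup hAp
  have hAH : A ≤ Subgroup.normalizer (H : Set G) := le_normalizer_of_forall_conj_mem hH.2.2.1
  have hcop : (Nat.card A).Coprime (Nat.card H) := by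
    obtain ⟨k, hk⟩ := IsPGroup.iff_card.mp hAp
    rw [hk]
    exact Nat.Coprime.pow_left k ((Nat.Prime.coprime_iff_not_dvd hp.out).mpr hH.2.1)
  obtain ⟨S, hS⟩ := Cfsg.Agent.S0023.result A H hAH hcop (Or.inl hAsolv) q
  have hSfam : (S : Subgroup H).map H.subtype ∈ signalizerFamily p A θ :=
    family_of_le hH (Subgroup.map_subtype_le _) (forall_conj_mem_of_le_normalizer hS)
  obtain ⟨R, hSR, hR⟩ := exists_isMaxQ hSfam (S.2.map _)
  obtain ⟨c, hc, hcQ⟩ := transitivity p A hA hA3 θ hθ q hQ hR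
  refine ⟨c, hc, S, ?_⟩
  rw [hcQ]
  apply le_antisymm (le_inf hSR (Subgroup.map_subtype_le _))
  have hq' : IsPGroup q ((R ⊓ H).subgroupOf H) := (hR.2.1.to_le inf_le_left).comap_subtype
  have hle : (S : Subgroup H) ≤ (R ⊓ H).subgroupOf H := by
    intro y hy
    exact ⟨hSR ⟨y, hy, rfl⟩, y.2⟩
  have heq := S.3 hq' hle
  intro x hx
  have hx' : (⟨x, hx.2⟩ : H) ∈ (R ⊓ H).subgroupOf H := hx
  rw [heq] at hx'
  exact ⟨⟨x, hx.2⟩, hx', rfl⟩

theorem maxQ_sylow_centralizer (p : ℕ) [hp : Fact p.Prime] (A : Subgroup G)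
    (hA : IsElementaryAbelian p A) (hA3 : p ^ 3 ≤ Nat.card ↥A) (θ : G → Subgroup G)
    (hθ : IsSolvableSignalizerFunctor p A θ) (q : ℕ) [Fact q.Prime] {Q : Subgroup G}
    (hQ : IsMaxQ p A θ q Q) (B : Subgroup G) (hBA : B ≤ A) (hB : B ≠ ⊥) :
    ∃ S : Sylow q ↥(signalizerInf B θ),
      (S : Subgroup ↥(signalizerInf B θ)).map (signalizerInf B θ).subtype =
        Q ⊓ Subgroup.centralizer (B : Set G) := by
  obtain ⟨⟨b₀, hb₀B⟩, hb₀⟩ := Subgroup.ne_bot_iff_exists_ne_one.mp hB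
  have hb₀1 : b₀ ≠ 1 := fun h => hb₀ (Subtype.ext h)
  have hT_le : signalizerInf B θ ≤ θ b₀ := signalizerInf_le_theta hb₀B hb₀1
  have hTA : ∀ a ∈ A, ∀ x ∈ signalizerInf B θ, a * x * a⁻¹ ∈ signalizerInf B θ := by
    intro a ha x hx
    unfold signalizerInf at hx ⊢
    rw [Subgroup.mem_iInf] at hx ⊢
    rintro ⟨b, hbB, hb1⟩
    exact hθ.1.2.2.1 b (hBA hbB) hb1 a ha x (hx ⟨b, hbB, hb1⟩)
  have hTfam : signalizerInf B θ ∈ signalizerFamily p A θ :=
    family_of_le (theta_mem_family hθ (hBA hb₀B) hb₀1) hT_le hTA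
  obtain ⟨c, hc, S, hS⟩ := maxQ_sylow_member p A hA hA3 θ hθ q hQ _ hTfam
  have hCT : signalizerInf A θ ≤ signalizerInf B θ := by
    apply le_iInf
    rintro ⟨b, hbB, hb1⟩
    exact signalizerInf_le_theta (hBA hbB) hb1
  have hcT : c ∈ signalizerInf B θ := hCT hc
  have hQT : Q ⊓ Subgroup.centralizer (B : Set G) = Q ⊓ signalizerInf B θ := by
    apply le_antisymm
    · intro x hx
      refine ⟨hx.1, ?_⟩
      refine Subgroup.mem_iInf.mpr ?_
      rintro ⟨b, hbB, hb1⟩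
      exact hQ.1.2.2.2 b (hBA hbB) hb1
        ⟨hx.1, Subgroup.centralizer_le (Set.singleton_subset_iff.mpr hbB) hx.2⟩
    · intro x hx
      refine ⟨hx.1, ?_⟩
      refine Subgroup.mem_centralizer_iff.mpr ?_
      intro b hb
      by_cases hb1 : b = 1
      · rw [hb1]; simp
      · have hxb : x ∈ θ b := signalizerInf_le_theta hb hb1 hx.2
        exact Subgroup.mem_centralizer_iff.mp (hθ.1.1 b (hBA hb) hb1 hxb) b rfl
  have hmap : (Q ⊓ signalizerInf B θ).map (MulAut.conj c).toMonoidHom =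
      Q.map (MulAut.conj c).toMonoidHom ⊓ signalizerInf B θ := by
    rw [Subgroup.map_inf _ _ _ (MulAut.conj c).injective,
      map_conj_eq_of_mem_normalizer (Subgroup.le_normalizer hcT)]
  have hcard : Nat.card ((Q ⊓ signalizerInf B θ).subgroupOf (signalizerInf B θ)) =
      q ^ (Nat.card (signalizerInf B θ)).factorization q := by
    rw [Nat.card_congr (Subgroup.subgroupOfEquivOfLe
        (inf_le_right : Q ⊓ signalizerInf B θ ≤ signalizerInf B θ)).toEquiv,
      ← Subgroup.card_map_of_injective (f := (MulAut.conj c).toMonoidHom)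
        (MulAut.conj c).injective (K := Q ⊓ signalizerInf B θ),
      hmap, ← hS, Subgroup.card_map_of_injective (signalizerInf B θ).subtype_injective]
    exact S.card_eq_multiplicity
  refine ⟨Sylow.ofCard _ hcard, ?_⟩
  rw [hQT]
  show ((Q ⊓ signalizerInf B θ).subgroupOf (signalizerInf B θ)).map
    (signalizerInf B θ).subtype = Q ⊓ signalizerInf B θ
  rw [Subgroup.subgroupOf_map_subtype]
  exact inf_eq_left.mpr inf_le_right

theorem complete_of_qGroups (p : ℕ) [hp : Fact p.Prime] (A : Subgroup G)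
    (hA : IsElementaryAbelian p A) (hA3 : p ^ 3 ≤ Nat.card ↥A) (θ : G → Subgroup G)
    (hθ : IsSolvableSignalizerFunctor p A θ) (q : ℕ) [Fact q.Prime]
    (hq : ∀ a ∈ A, a ≠ 1 → IsPGroup q ↥(θ a)) : IsCompleteSignalizerFunctor p A θ := by
  refine ⟨hθ.1, ?_⟩
  have hbot : (⊥ : Subgroup G) ∈ signalizerFamily p A θ := by
    refine ⟨inferInstance, ?_, ?_, ?_⟩
    · rw [Subgroup.card_bot]; exact hp.out.not_dvd_one
    · intro b _ u hu
      rw [Subgroup.mem_bot] at hu ⊢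
      rw [hu]; group
    · intro a _ _
      rw [bot_inf_eq]; exact bot_le
  obtain ⟨Q, _, hQ⟩ := exists_isMaxQ hbot (IsPGroup.of_bot)
  refine ⟨Q, hQ.1.2.2.1, hQ.1.2.1, ?_⟩
  intro a ha ha1
  apply le_antisymm (hQ.1.2.2.2 a ha ha1)
  refine le_inf ?_ (hθ.1.1 a ha ha1)
  obtain ⟨R, hθR, hR⟩ := exists_isMaxQ (theta_mem_family hθ ha ha1) (hq a ha ha1)
  obtain ⟨c, hc, hcQ⟩ := transitivity p A hA hA3 θ hθ q hQ hR
  intro x hx
  have hca : c ∈ θ a := signalizerInf_le_theta ha ha1 hc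
  have h1 : c * x * c⁻¹ ∈ R :=
    hθR (Subgroup.mul_mem _ (Subgroup.mul_mem _ hca hx) (Subgroup.inv_mem _ hca))
  rw [← hcQ, mem_map_conj_iff] at h1
  have e : c⁻¹ * (c * x * c⁻¹) * c = x := by group
  rwa [e] at h1

end

end Cfsg.Agent.Helper10
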