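import Mathlib
import Cfsg.Prelude.Def_OddOrderLocal
import Cfsg.Agent.Helper11.CNHall
import Cfsg.Agent.Helper10.NormP
import Cfsg.Agent.Helper10.Layer
import Cfsg.Agent.Helper10.Coprime
import Cfsg.Agent.Helper10.Comm

set_option autoImplicit false

open Cfsg

universe u

namespace Cfsg.Agent.Helper10

theorem card_of_isComplIn {G : Type u} [Group G] {A B M : Subgroup G} (h : IsComplIn A B M) :
    Nat.card A * Nat.card B = Nat.card M := by
  obtain ⟨hA, hB, hAB, hM⟩ := h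
  rw [← Nat.card_prod]
  apply Nat.card_congr
  refine Equiv.ofBijective (fun x : A × B => (⟨(x.1 : G) * x.2, M.mul_mem (hA x.1.2) (hB x.2.2)⟩ : M))
    ⟨?_, ?_⟩
  · rintro ⟨⟨a, ha⟩, ⟨b, hb⟩⟩ ⟨⟨a', ha'⟩, ⟨b', hb'⟩⟩ e
    have e' : a * b = a' * b' := congrArg Subtype.val e
    have h1 : a'⁻¹ * a ∈ A ⊓ B := by
      refine ⟨A.mul_mem (A.inv_mem ha') ha, ?_⟩
      have e2 : a'⁻¹ * a = b' * b⁻¹ := by
        rw [inv_mul_eq_iff_eq_mul, ← mul_assoc, ← e', mul_inv_cancel_right]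
      rw [e2]; exact B.mul_mem hb' (B.inv_mem hb)
    rw [hAB, Subgroup.mem_bot, inv_mul_eq_one] at h1
    subst h1
    have h2 : b = b' := mul_left_cancel e'
    subst h2
    rfl
  · rintro ⟨m, hm⟩
    obtain ⟨a, ha, b, hb, e⟩ := hM m hm
    exact ⟨⟨⟨a, ha⟩, ⟨b, hb⟩⟩, Subtype.ext e.symm⟩

theorem card_mul_relIndex_of_le {G : Type u} [Group G] {A M : Subgroup G} (h : A ≤ M) :
    Nat.card A * A.relIndex M = Nat.card M := by
  have h1 := Subgroup.card_mul_index (A.subgroupOf M)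
  have h2 : Nat.card (A.subgroupOf M) = Nat.card A :=
    Nat.card_congr (Subgroup.subgroupOfEquivOfLe h).toEquiv
  rw [h2] at h1
  exact h1

theorem mem_sup_of_pow_mem {G : Type*} [Group G] (A B : Subgroup G) (c : G) (a j : ℕ)
    (hco : a.Coprime j) (h1 : c ^ a ∈ A) (h2 : c ^ j ∈ B) : c ∈ A ⊔ B := by
  have h := Int.gcd_eq_gcd_ab a j
  rw [Int.gcd_natCast_natCast, hco.gcd_eq_one] at h
  have e : c = (c ^ a) ^ (Int.gcdA a j) * (c ^ j) ^ (Int.gcdB a j) := by
    rw [← zpow_natCast, ← zpow_natCast, ← zpow_mul, ← zpow_mul, ← zpow_add, ← h]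
    simp
  rw [e]
  exact Subgroup.mul_mem _ (Subgroup.mem_sup_left (Subgroup.zpow_mem _ h1 _))
    (Subgroup.mem_sup_right (Subgroup.zpow_mem _ h2 _))

theorem eq_one_of_pow_coprime {G : Type*} [Group G] (w : G) (a b : ℕ) (hco : a.Coprime b)
    (h1 : w ^ a = 1) (h2 : w ^ b = 1) : w = 1 := by
  have d1 := orderOf_dvd_of_pow_eq_one h1
  have d2 := orderOf_dvd_of_pow_eq_one h2
  have d3 : orderOf w ∣ 1 := by rw [← hco.gcd_eq_one]; exact Nat.dvd_gcd d1 d2
  exact orderOf_eq_one_iff.mp (Nat.dvd_one.mp d3)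

/-! ### `M_F` as a subgroup of `G` -/

theorem fittingHallOf_le {G : Type u} [Group G] (M : Subgroup G) : fittingHallOf M ≤ M :=
  Subgroup.map_subtype_le _

theorem le_normalizer_fittingHallOf {G : Type u} [Group G] (M : Subgroup G) :
    M ≤ Subgroup.normalizer ((fittingHallOf M : Subgroup G) : Set G) :=
  le_normalizer_map_subtype _ _

theorem fittingHallOf_coprime {G : Type u} [Group G] [Finite G] (M : Subgroup G) :
    (Nat.card (fittingHallOf M)).Coprime (fittingHall ↥M).index := by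
  have h : Nat.card (fittingHallOf M) = Nat.card (fittingHall ↥M) :=
    Subgroup.card_map_of_injective (Subgroup.subtype_injective _)
  rw [h]; exact Cfsg.Agent.Helper11.fittingHall_coprime ↥M

theorem fittingHallOf_card_mul_index {G : Type u} [Group G] (M : Subgroup G) :
    Nat.card (fittingHallOf M) * (fittingHall ↥M).index = Nat.card M := by
  have h : Nat.card (fittingHallOf M) = Nat.card (fittingHall ↥M) :=
    Subgroup.card_map_of_injective (Subgroup.subtype_injective _)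
  rw [h]; exact Subgroup.card_mul_index _

theorem pow_card_fittingHallOf {G : Type u} [Group G] (M : Subgroup G) (h : G)
    (hh : h ∈ fittingHallOf M) : h ^ Nat.card (fittingHallOf M) = 1 :=
  orderOf_dvd_iff_pow_eq_one.mp (Subgroup.orderOf_dvd_natCard _ hh)

theorem pow_index_mem_fittingHallOf {G : Type u} [Group G] (M : Subgroup G) (m : G)
    (hm : m ∈ M) : m ^ (fittingHall ↥M).index ∈ fittingHallOf M := by
  have h := Subgroup.pow_index_mem (fittingHall ↥M) (⟨m, hm⟩ : ↥M)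
  exact ⟨_, h, rfl⟩

theorem commutator_self_le {G : Type*} [Group G] (M : Subgroup G) : ⁅M, M⁆ ≤ M := by
  rw [Subgroup.commutator_le]
  intro a ha b hb
  exact M.mul_mem (M.mul_mem (M.mul_mem ha hb) (M.inv_mem ha)) (M.inv_mem hb)

/-- S1387. -/
theorem typeP_fitting {G : Type u} [Group G] [Finite G] (M W₁ U W₂ : Subgroup G)
    (hP : IsTypePWith M W₁ U W₂) :
    fittingOf M = fittingHallOf M ⊔ (U ⊓ Subgroup.centralizer (fittingHallOf M : Set G)) := by
  obtain ⟨hHM', hUM', hHU, hdec⟩ := hP.U_compl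
  have hM'M : ⁅M, M⁆ ≤ M := commutator_self_le M
  rw [← hP.fitting_eq]
  apply le_antisymm
  · apply sup_le le_sup_left
    intro c hc
    have hcF : c ∈ fittingOf M := by rw [← hP.fitting_eq]; exact Subgroup.mem_sup_right hc
    obtain ⟨h, hh, u, hu, e⟩ := hdec c (hP.fitting_le hcF)
    have hcC : c ∈ Subgroup.centralizer (fittingHallOf M : Set G) := hc.2
    have hhc : h * c = c * h := Subgroup.mem_centralizer_iff.mp hcC h hh
    have hu' : u = h⁻¹ * c := by rw [e]; group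
    have hca : c ^ Nat.card (fittingHallOf M) = u ^ Nat.card (fittingHallOf M) := by
      rw [hu', (show Commute h⁻¹ c from Commute.inv_left hhc).mul_pow, inv_pow,
        pow_card_fittingHallOf M h hh, inv_one, one_mul]
    have h1 : c ^ Nat.card (fittingHallOf M) ∈
        U ⊓ Subgroup.centralizer (fittingHallOf M : Set G) :=
      ⟨by rw [hca]; exact U.pow_mem hu _, Subgroup.pow_mem _ hcC _⟩
    have h2 := pow_index_mem_fittingHallOf M c hc.1
    have h3 := mem_sup_of_pow_mem _ _ c _ _ (fittingHallOf_coprime M) h1 h2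
    rw [sup_comm]; exact h3
  · exact sup_le_sup_left (inf_le_inf_right _ (hUM'.trans hM'M)) _

/-- S1388. -/
theorem typeP_derived {G : Type u} [Group G] [Finite G] (M W₁ U W₂ : Subgroup G)
    (hP : IsTypePWith M W₁ U W₂) :
    ⁅U, U⁆ ≤ Subgroup.centralizer (fittingHallOf M : Set G) ∧
      (U ≠ ⊥ → ¬ U ≤ Subgroup.centralizer (fittingHallOf M : Set G)) := by
  obtain ⟨hHM', hUM', hHU, hdec⟩ := hP.U_compl
  have hM'M : ⁅M, M⁆ ≤ M := commutator_self_le M
  have hUM : U ≤ M := hUM'.trans hM'M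
  constructor
  · intro x hx
    have hxU : x ∈ U := commutator_self_le U hx
    have hxF : x ∈ fittingOf M := by
      rw [← hP.fitting_eq]; apply hP.derived_two_le
      exact Subgroup.commutator_mono hUM' hUM' hx
    rw [typeP_fitting M W₁ U W₂ hP] at hxF
    have hKN : U ⊓ Subgroup.centralizer (fittingHallOf M : Set G) ≤
        Subgroup.normalizer ((fittingHallOf M : Subgroup G) : Set G) :=
      inf_le_right.trans (Subgroup.centralizer_le_normalizer _)
    obtain ⟨h, hh, k, hk, e⟩ := mem_sup_of_le_normalizer hKN hxF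
    have hh1 : h = 1 := by
      have h1 : h ∈ fittingHallOf M ⊓ U := by
        refine ⟨hh, ?_⟩
        have e2 : h = x * k⁻¹ := by rw [e]; group
        rw [e2]; exact U.mul_mem hxU (U.inv_mem hk.1)
      rw [hHU] at h1; exact Subgroup.mem_bot.mp h1
    rw [e, hh1, one_mul]; exact hk.2
  · intro hU hUC
    apply hU
    -- `U` is a normal nilpotent Hall subgroup of `M`
    have hMU : M ≤ Subgroup.normalizer (U : Set G) := by
      have key : ∀ m ∈ M, ∀ u ∈ U, m * u * m⁻¹ ∈ U := by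
        intro m hm u hu
        have hy : m * u * m⁻¹ ∈ ⁅M, M⁆ := conj_commutator_mem M M m hm u (hUM' hu)
        obtain ⟨h, hh, u₁, hu₁, e⟩ := hdec _ hy
        have hcomm : Commute h u₁ := Subgroup.mem_centralizer_iff.mp (hUC hu₁) h hh
        have h1 : (m * u * m⁻¹) ^ Nat.card (fittingHallOf M) ∈ U := by
          rw [e, hcomm.mul_pow, pow_card_fittingHallOf M h hh, one_mul]
          exact U.pow_mem hu₁ _
        have h2 : (m * u * m⁻¹) ^ (fittingHall ↥M).index ∈ U := by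
          have h3 : u ^ (fittingHall ↥M).index ∈ fittingHallOf M ⊓ U :=
            ⟨pow_index_mem_fittingHallOf M u (hUM hu), U.pow_mem hu _⟩
          rw [hHU, Subgroup.mem_bot] at h3
          rw [conj_pow, h3, mul_one, mul_inv_cancel]
          exact U.one_mem
        have h4 := mem_sup_of_pow_mem U U _ _ _ (fittingHallOf_coprime M) h1 h2
        rwa [sup_idem] at h4
      intro m hm
      rw [Subgroup.mem_normalizer_iff]
      intro u
      constructor
      · exact key m hm u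
      · intro hu
        have h1 := key m⁻¹ (M.inv_mem hm) _ hu
        have e : m⁻¹ * (m * u * m⁻¹) * m⁻¹⁻¹ = u := by group
        rwa [e] at h1
    have hUn : (U.subgroupOf M).Normal :=
      (Subgroup.normal_subgroupOf_iff_le_normalizer hUM).mpr hMU
    have hUnil : Group.IsNilpotent (U.subgroupOf M) := by
      haveI := hP.U_nilpotent
      exact (Group.isNilpotent_congr (Subgroup.subgroupOfEquivOfLe hUM)).mpr inferInstance
    -- cardinalities
    have c1 : Nat.card (fittingHallOf M) * Nat.card U = Nat.card (⁅M, M⁆ : Subgroup G) :=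
      card_of_isComplIn hP.U_compl
    have c2 : Nat.card (⁅M, M⁆ : Subgroup G) * Nat.card W₁ = Nat.card M := card_of_isComplIn hP.W₁_compl
    have c3 : Nat.card W₁ * W₁.relIndex M = Nat.card M := card_mul_relIndex_of_le hP.W₁_compl.2.1
    have c4 := fittingHallOf_card_mul_index M
    have c5 : Nat.card (U.subgroupOf M) * (U.subgroupOf M).index = Nat.card M :=
      Subgroup.card_mul_index _
    have c6 : Nat.card (U.subgroupOf M) = Nat.card U :=
      Nat.card_congr (Subgroup.subgroupOfEquivOfLe hUM).toEquiv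
    have hapos : 0 < Nat.card (fittingHallOf M) := Nat.card_pos
    have hbpos : 0 < Nat.card U := Nat.card_pos
    have hwpos : 0 < Nat.card W₁ := Nat.card_pos
    have e1 : W₁.relIndex M = Nat.card (fittingHallOf M) * Nat.card U := by
      have : Nat.card W₁ * W₁.relIndex M = Nat.card W₁ * (Nat.card (fittingHallOf M) * Nat.card U) := by
        rw [c3, ← c2, ← c1]; ring
      exact Nat.eq_of_mul_eq_mul_left hwpos this
    have e2 : (fittingHall ↥M).index = Nat.card U * Nat.card W₁ := by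
      have : Nat.card (fittingHallOf M) * (fittingHall ↥M).index =
          Nat.card (fittingHallOf M) * (Nat.card U * Nat.card W₁) := by
        rw [c4, ← c2, ← c1]; ring
      exact Nat.eq_of_mul_eq_mul_left hapos this
    have e3 : (U.subgroupOf M).index = Nat.card (fittingHallOf M) * Nat.card W₁ := by
      have : Nat.card U * (U.subgroupOf M).index =
          Nat.card U * (Nat.card (fittingHallOf M) * Nat.card W₁) := by
        rw [← c6, c5, ← c2, ← c1, c6]; ring
      exact Nat.eq_of_mul_eq_mul_left hbpos this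
    have g1 : (Nat.card W₁).Coprime (Nat.card (fittingHallOf M) * Nat.card U) := by
      rw [← e1]; exact hP.W₁_hall
    have g2 : (Nat.card (fittingHallOf M)).Coprime (Nat.card U * Nat.card W₁) := by
      rw [← e2]; exact fittingHallOf_coprime M
    have hUhall : (Nat.card (U.subgroupOf M)).Coprime (U.subgroupOf M).index := by
      rw [c6, e3]
      exact Nat.Coprime.mul_right (Nat.Coprime.coprime_mul_right_right g2).symm
        (Nat.Coprime.coprime_mul_left_right g1).symm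
    have hle : U.subgroupOf M ≤ fittingHall ↥M := le_sSup ⟨hUn, hUnil, hUhall⟩
    rw [eq_bot_iff]
    intro u hu
    have h1 : u ∈ fittingHallOf M ⊓ U :=
      ⟨⟨⟨u, hUM hu⟩, hle (Subgroup.mem_subgroupOf.mpr hu), rfl⟩, hu⟩
    rw [hHU] at h1; exact h1

/-- S1386. -/
theorem typeP_W₂_eq {G : Type u} [Group G] [Finite G] (W₁ W₂ S U W₂' : Subgroup G)
    (hW : IsSelfNormalizingCyclic W₁ W₂) (hSW : IsComplIn ⁅S, S⁆ W₁ S) (hW₂S : W₂ ≤ S)
    (hP : IsTypePWith S W₁ U W₂') : W₂' = W₂ := by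
  obtain ⟨hW₁ne, hW₂ne, hW12, hcomm, -, hnorm⟩ := hW
  obtain ⟨-, hW₂'ne, hW12', hcomm', -, hnorm'⟩ := hP.selfNormalizing
  obtain ⟨hS'S, hW₁S, hS'W₁, hdec⟩ := hSW
  haveI := hP.W₁_cyclic
  obtain ⟨w₁, hw₁, hw₁1⟩ : ∃ w₁ ∈ W₁, w₁ ≠ 1 := by
    by_contra hcon
    apply hW₁ne
    rw [eq_bot_iff]; intro a ha
    by_contra h1
    exact hcon ⟨a, ha, fun h2 => h1 (by rw [h2]; exact Subgroup.one_mem _)⟩
  obtain ⟨w₂, hw₂, hw₂1⟩ : ∃ w₂ ∈ W₂, w₂ ≠ 1 := by
    by_contra hcon
    apply hW₂ne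
    rw [eq_bot_iff]; intro a ha
    by_contra h1
    exact hcon ⟨a, ha, fun h2 => h1 (by rw [h2]; exact Subgroup.one_mem _)⟩
  have hcent := hP.W₂_centralizer w₁ hw₁ hw₁1
  -- cardinalities
  have c2 : Nat.card (⁅S, S⁆ : Subgroup G) * Nat.card W₁ = Nat.card S := card_of_isComplIn ⟨hS'S, hW₁S, hS'W₁, hdec⟩
  have c3 : Nat.card W₁ * W₁.relIndex S = Nat.card S := card_mul_relIndex_of_le hW₁S
  have hwpos : 0 < Nat.card W₁ := Nat.card_pos
  have e1 : W₁.relIndex S = Nat.card (⁅S, S⁆ : Subgroup G) := by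
    have : Nat.card W₁ * W₁.relIndex S = Nat.card W₁ * Nat.card (⁅S, S⁆ : Subgroup G) := by
      rw [c3, ← c2]; ring
    exact Nat.eq_of_mul_eq_mul_left hwpos this
  have hco : (Nat.card W₁).Coprime (Nat.card (⁅S, S⁆ : Subgroup G)) := by rw [← e1]; exact hP.W₁_hall
  -- `W₂ ≤ W₂'`
  have h12 : W₂ ≤ W₂' := by
    intro v hv
    obtain ⟨s', hs', w, hw, e⟩ := hdec v (hW₂S hv)
    have hww₁ : w * w₁ = w₁ * w := congrArg Subtype.val (mul_comm' (⟨w, hw⟩ : W₁) ⟨w₁, hw₁⟩)
    have hvw₁ : v * w₁ = w₁ * v := (hcomm w₁ hw₁ v hv).symm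
    have hs'e : s' = v * w⁻¹ := by rw [e]; group
    have hs'c : s' ∈ W₂' := by
      rw [← hcent]
      refine Subgroup.mem_inf.mpr ⟨hs', ?_⟩
      rw [Subgroup.mem_centralizer_singleton_iff, hs'e]
      have h1 : Commute (v * w⁻¹) w₁ :=
        (show Commute v w₁ from hvw₁).mul_left (show Commute w w₁ from hww₁).inv_left
      exact h1.eq
    have hsw : Commute s' w := (hcomm' w hw s' hs'c).symm
    have h1 : w ^ Nat.card (⁅S, S⁆ : Subgroup G) = 1 := by
      have h2 : v ^ Nat.card (⁅S, S⁆ : Subgroup G) = w ^ Nat.card (⁅S, S⁆ : Subgroup G) := by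
        rw [e, hsw.mul_pow, orderOf_dvd_iff_pow_eq_one.mp (Subgroup.orderOf_dvd_natCard _ hs'),
          one_mul]
      have h3 : w ^ Nat.card (⁅S, S⁆ : Subgroup G) ∈ W₁ ⊓ W₂ :=
        ⟨W₁.pow_mem hw _, by rw [← h2]; exact W₂.pow_mem hv _⟩
      rw [hW12] at h3; exact Subgroup.mem_bot.mp h3
    have h4 : w ^ Nat.card W₁ = 1 :=
      orderOf_dvd_iff_pow_eq_one.mp (Subgroup.orderOf_dvd_natCard _ hw)
    have hw1 : w = 1 := eq_one_of_pow_coprime w _ _ hco h4 h1
    rw [e, hw1, mul_one]; exact hs'c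
  -- the normalizer of `{w₁ * w₂}`
  have hx1 : ({w₁ * w₂} : Set G) ⊆ (↑(W₁ ⊔ W₂) : Set G) \ (↑W₁ ∪ ↑W₂) := by
    rintro _ rfl
    refine ⟨Subgroup.mul_mem _ (Subgroup.mem_sup_left hw₁) (Subgroup.mem_sup_right hw₂), ?_⟩
    rintro (h | h)
    · have h1 : w₂ ∈ W₁ ⊓ W₂ := by
        refine ⟨?_, hw₂⟩
        have e : w₂ = w₁⁻¹ * (w₁ * w₂) := by group
        rw [e]; exact W₁.mul_mem (W₁.inv_mem hw₁) h
      rw [hW12] at h1; exact hw₂1 (Subgroup.mem_bot.mp h1)
    · have h1 : w₁ ∈ W₁ ⊓ W₂ := by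
        refine ⟨hw₁, ?_⟩
        have e : w₁ = (w₁ * w₂) * w₂⁻¹ := by group
        rw [e]; exact W₂.mul_mem h (W₂.inv_mem hw₂)
      rw [hW12] at h1; exact hw₁1 (Subgroup.mem_bot.mp h1)
  have hx2 : ({w₁ * w₂} : Set G) ⊆ (↑(W₁ ⊔ W₂') : Set G) \ (↑W₁ ∪ ↑W₂') := by
    rintro _ rfl
    refine ⟨Subgroup.mul_mem _ (Subgroup.mem_sup_left hw₁) (Subgroup.mem_sup_right (h12 hw₂)), ?_⟩
    rintro (h | h)
    · have h1 : w₂ ∈ W₁ ⊓ W₂ := by
        refine ⟨?_, hw₂⟩
        have e : w₂ = w₁⁻¹ * (w₁ * w₂) := by group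
        rw [e]; exact W₁.mul_mem (W₁.inv_mem hw₁) h
      rw [hW12] at h1; exact hw₂1 (Subgroup.mem_bot.mp h1)
    · have h1 : w₁ ∈ W₁ ⊓ W₂' := by
        refine ⟨hw₁, ?_⟩
        have e : w₁ = (w₁ * w₂) * w₂⁻¹ := by group
        rw [e]; exact W₂'.mul_mem h (W₂'.inv_mem (h12 hw₂))
      rw [hW12'] at h1; exact hw₁1 (Subgroup.mem_bot.mp h1)
  have hsup : W₁ ⊔ W₂ = W₁ ⊔ W₂' := by
    rw [← hnorm _ hx1 (Set.singleton_nonempty _), ← hnorm' _ hx2 (Set.singleton_nonempty _)]
  apply le_antisymm _ h12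
  intro y hy
  have hy' : y ∈ W₁ ⊔ W₂ := by rw [hsup]; exact Subgroup.mem_sup_right hy
  obtain ⟨a, ha, b, hb, e⟩ := mem_sup_of_comm hcomm hy'
  have ha1 : a ∈ W₁ ⊓ W₂' := by
    refine ⟨ha, ?_⟩
    have e2 : a = y * b⁻¹ := by rw [e]; group
    rw [e2]; exact W₂'.mul_mem hy (W₂'.inv_mem (h12 hb))
  rw [hW12'] at ha1
  rw [e, Subgroup.mem_bot.mp ha1, one_mul]; exact hb

end Cfsg.Agent.Helper10
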